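import Mathlib

/-!
# Four-fold transitive groups with odd four-point stabilizers: basic tools

A Sylow-conjugacy lemma for `W ⊔ K` with `K` of odd order and the induced "Witt lemma" for
a group of exponent two acting on four points.
-/

set_option autoImplicit false

namespace Cfsg.Agent.Lib.FourTrans

open Equiv
open scoped Pointwise

universe u

/-- Sylow conjugacy in `W ⊔ K` for `K` odd, `W` a 2-group normalizing `K`. -/
theorem exists_conj_of_odd {Γ : Type*} [Group Γ] [Finite Γ] (K W W' : Subgroup Γ)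
    (hK : Odd (Nat.card K)) (hW : IsPGroup 2 W) (hW' : IsPGroup 2 W') (hWK : W ≤ Subgroup.normalizer (K : Set Γ))
    (hcard : Nat.card W' = Nat.card W) (hle : W' ≤ W ⊔ K) :
    ∃ k ∈ K, ∀ w ∈ W', k * w * k⁻¹ ∈ W := by
  classical
  haveI : Fact (Nat.Prime 2) := ⟨Nat.prime_two⟩
  set X : Subgroup Γ := W ⊔ K with hX
  have hWX : W ≤ X := le_sup_left
  have hKX : K ≤ X := le_sup_right
  have hXnorm : X ≤ Subgroup.normalizer (K : Set Γ) := sup_le hWK Subgroup.le_normalizer
  haveI hK0 : (K.subgroupOf X).Normal := Subgroup.normal_subgroupOf_of_le_normalizer hXnorm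
  set W0 : Subgroup X := W.subgroupOf X with hW0
  set K0 : Subgroup X := K.subgroupOf X with hK0def
  set W1 : Subgroup X := W'.subgroupOf X with hW1
  have hW'X : W' ≤ X := hle
  have cW0 : Nat.card W0 = Nat.card W := by
    exact Nat.card_congr (Subgroup.subgroupOfEquivOfLe hWX).toEquiv
  have cK0 : Nat.card K0 = Nat.card K := by
    exact Nat.card_congr (Subgroup.subgroupOfEquivOfLe hKX).toEquiv
  have cW1 : Nat.card W1 = Nat.card W' := by
    exact Nat.card_congr (Subgroup.subgroupOfEquivOfLe hW'X).toEquiv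
  have htop : W0 ⊔ K0 = ⊤ := by
    apply Subgroup.map_injective X.subtype_injective
    rw [Subgroup.map_sup, hW0, hK0def, Subgroup.subgroupOf_map_subtype,
      Subgroup.subgroupOf_map_subtype, inf_eq_left.2 hWX, inf_eq_left.2 hKX,
      ← MonoidHom.range_eq_map, Subgroup.range_subtype]
  have hmul : (W0 : Set X) * (K0 : Set X) = Set.univ := by
    rw [← Subgroup.mul_normal, htop]; rfl
  have hdisj : Disjoint W0 K0 := by
    rw [Subgroup.disjoint_def]
    intro g hg1 hg2
    have hg2' : (g : Γ) ∈ K := hg2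
    have hg1' : (g : Γ) ∈ W := hg1
    -- order is a power of 2 and odd
    obtain ⟨n, hn⟩ := hW ⟨(g : Γ), hg1'⟩
    have h1 : (g : Γ) ^ 2 ^ n = 1 := by
      have := congrArg Subtype.val hn
      simpa using this
    have h2 : orderOf ((⟨(g : Γ), hg2'⟩ : K)) ∣ Nat.card K := orderOf_dvd_natCard _
    have h3 : orderOf ((⟨(g : Γ), hg2'⟩ : K)) ∣ 2 ^ n := by
      apply orderOf_dvd_of_pow_eq_one
      ext
      simpa using h1
    have h4 : Nat.Coprime (2 ^ n) (Nat.card K) :=
      Nat.Coprime.pow_left n (Nat.coprime_two_left.2 hK)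
    have h5 : orderOf ((⟨(g : Γ), hg2'⟩ : K)) = 1 :=
      Nat.eq_one_of_dvd_coprimes h4 h3 h2
    have h6 := orderOf_eq_one_iff.1 h5
    ext
    simpa using congrArg Subtype.val h6
  have hcomp : W0.IsComplement' K0 :=
    Subgroup.isComplement'_of_disjoint_and_mul_eq_univ hdisj hmul
  have hcardX : Nat.card W * Nat.card K = Nat.card X := by
    rw [← cW0, ← cK0]; exact hcomp.card_mul_card
  have hWpos : 0 < Nat.card W := Nat.card_pos
  have hW0index : W0.index = Nat.card K := by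
    have := W0.card_mul_index
    rw [cW0, ← hcardX] at this
    exact Nat.eq_of_mul_eq_mul_left hWpos this
  have hW1index : W1.index = Nat.card K := by
    have := W1.card_mul_index
    rw [cW1, hcard, ← hcardX] at this
    exact Nat.eq_of_mul_eq_mul_left hWpos this
  have hW0p : IsPGroup 2 W0 := by
    intro g
    obtain ⟨n, hn⟩ := hW ⟨((g : X) : Γ), g.2⟩
    refine ⟨n, ?_⟩
    ext
    simpa using congrArg Subtype.val hn
  have hW1p : IsPGroup 2 W1 := by
    intro g
    obtain ⟨n, hn⟩ := hW' ⟨((g : X) : Γ), g.2⟩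
    refine ⟨n, ?_⟩
    ext
    simpa using congrArg Subtype.val hn
  have hodd : ¬ 2 ∣ Nat.card K := by
    intro h
    exact (Nat.not_even_iff_odd.2 hK) (even_iff_two_dvd.2 h)
  let P0 : Sylow 2 X := hW0p.toSylow (by rw [hW0index]; exact hodd)
  let P1 : Sylow 2 X := hW1p.toSylow (by rw [hW1index]; exact hodd)
  obtain ⟨ξ, hξ⟩ := MulAction.exists_smul_eq X P1 P0
  -- decompose `ξ = w * k`
  have hξmem : ξ ∈ ((W0 : Set X) * (K0 : Set X)) := by rw [hmul]; trivial
  obtain ⟨w, hw, k, hk, hwk⟩ := Set.mem_mul.1 hξmem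
  have hwk' : w * k = ξ := hwk
  refine ⟨(k : Γ), hk, ?_⟩
  intro y hy
  -- `ξ y ξ⁻¹ ∈ P0 = W0`
  have hyX : y ∈ X := hW'X hy
  have h1 : (⟨y, hyX⟩ : X) ∈ (P1 : Subgroup X) := by
    change (⟨y, hyX⟩ : X) ∈ W1
    exact hy
  have h2 : ξ * ⟨y, hyX⟩ * ξ⁻¹ ∈ (P0 : Subgroup X) := by
    rw [← hξ]
    change _ ∈ ((ξ • P1 : Sylow 2 X) : Subgroup X)
    rw [Sylow.coe_subgroup_smul]
    exact ⟨_, h1, rfl⟩
  have h3 : ξ * ⟨y, hyX⟩ * ξ⁻¹ ∈ W0 := h2
  have h4 : k * ⟨y, hyX⟩ * k⁻¹ ∈ W0 := by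
    have : k * ⟨y, hyX⟩ * k⁻¹ = w⁻¹ * (ξ * ⟨y, hyX⟩ * ξ⁻¹) * w := by
      rw [← hwk']; group
    rw [this]
    exact W0.mul_mem (W0.mul_mem (W0.inv_mem hw) h3) hw
  exact h4


variable {α : Type u} [Fintype α] [DecidableEq α]

/-- Pointwise stabilizer in `G` of a family of four points. -/
def K4 (G : Subgroup (Perm α)) (b : Fin 4 → α) : Subgroup (Perm α) where
  carrier := {g | g ∈ G ∧ ∀ i, g (b i) = b i}
  mul_mem' := by
    rintro g h ⟨hg, hg'⟩ ⟨hh, hh'⟩
    refine ⟨G.mul_mem hg hh, fun i => ?_⟩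
    simp [Perm.mul_apply, hh', hg']
  one_mem' := ⟨G.one_mem, fun _ => rfl⟩
  inv_mem' := by
    rintro g ⟨hg, hg'⟩
    refine ⟨G.inv_mem hg, fun i => ?_⟩
    rw [Perm.inv_eq_iff_eq]
    exact (hg' i).symm

theorem mem_K4 {G : Subgroup (Perm α)} {b : Fin 4 → α} {g : Perm α} :
    g ∈ K4 G b ↔ g ∈ G ∧ ∀ i, g (b i) = b i := Iff.rfl

/-- Standing hypotheses: four-fold transitive, odd pointwise stabilizers of four points. -/
structure Setup (G : Subgroup (Perm α)) : Prop where
  trans : ∀ a b : Fin 4 → α, Function.Injective a → Function.Injective b →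
    ∃ g ∈ G, ∀ i, g (a i) = b i
  odd : ∀ b : Fin 4 → α, Function.Injective b → Odd (Nat.card (K4 G b))

/-- The subgroup `{1, s, u, s * u}` for commuting elements with square one. -/
def v4 (s u : Perm α) (hs : s * s = 1) (hu : u * u = 1) (hc : s * u = u * s) :
    Subgroup (Perm α) where
  carrier := {w | w = 1 ∨ w = s ∨ w = u ∨ w = s * u}
  mul_mem' := by
    intro a b ha hb
    have e1 : s * (s * u) = u := by rw [← mul_assoc, hs, one_mul]
    have e2 : u * (s * u) = s := by rw [hc, ← mul_assoc, hu, one_mul]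
    have e3 : s * u * s = u := by rw [hc, mul_assoc, hs, mul_one]
    have e4 : s * u * u = s := by rw [mul_assoc, hu, mul_one]
    have e5 : s * u * (s * u) = 1 := by rw [← mul_assoc, e3, hu]
    have e6 : u * s = s * u := hc.symm
    rcases ha with ha | ha | ha | ha <;> rcases hb with hb | hb | hb | hb <;> rw [ha, hb] <;>
      simp only [Set.mem_setOf_eq, one_mul, mul_one, hs, hu, e1, e2, e3, e4, e5, e6, true_or,
        or_true]
  one_mem' := Or.inl rfl
  inv_mem' := by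
    rintro a (rfl | rfl | rfl | rfl)
    · simp
    · right; left; exact inv_eq_of_mul_eq_one_right hs
    · right; right; left; exact inv_eq_of_mul_eq_one_right hu
    · right; right; right
      apply inv_eq_of_mul_eq_one_right
      calc s * u * (s * u) = s * (u * s) * u := by group
        _ = s * (s * u) * u := by rw [hc]
        _ = (s * s) * (u * u) := by group
        _ = 1 := by rw [hs, hu, one_mul]

theorem mem_v4 {s u : Perm α} {hs : s * s = 1} {hu : u * u = 1} {hc : s * u = u * s}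
    {w : Perm α} : w ∈ v4 s u hs hu hc ↔ w = 1 ∨ w = s ∨ w = u ∨ w = s * u := Iff.rfl

theorem v4_sq {s u : Perm α} {hs : s * s = 1} {hu : u * u = 1} {hc : s * u = u * s}
    {w : Perm α} (hw : w ∈ v4 s u hs hu hc) : w * w = 1 := by
  have e5 : s * u * (s * u) = 1 := by
    calc s * u * (s * u) = s * (u * s) * u := by group
        _ = s * (s * u) * u := by rw [hc]
        _ = (s * s) * (u * u) := by group
        _ = 1 := by rw [hs, hu, one_mul]
  rcases hw with rfl | rfl | rfl | rfl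
  · simp
  · exact hs
  · exact hu
  · exact e5

theorem v4_isP {s u : Perm α} {hs : s * s = 1} {hu : u * u = 1} {hc : s * u = u * s} :
    IsPGroup 2 (v4 s u hs hu hc) := by
  intro g
  have := v4_sq g.2
  refine ⟨1, Subtype.ext ?_⟩
  rw [pow_one, pow_two, Subgroup.coe_mul, this, Subgroup.coe_one]

/-- An element of `G` fixing four distinct points has odd order. -/
theorem Setup.odd_order {G : Subgroup (Perm α)} (S : Setup G) {b : Fin 4 → α}
    (hb : Function.Injective b) {g : Perm α} (hg : g ∈ G) (hfix : ∀ i, g (b i) = b i) :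
    Odd (orderOf g) := by
  have h := S.odd b hb
  have h2 : orderOf (⟨g, hg, hfix⟩ : K4 G b) ∣ Nat.card (K4 G b) := orderOf_dvd_natCard _
  have h3 : orderOf (⟨g, hg, hfix⟩ : K4 G b) = orderOf g := by
    rw [← Subgroup.orderOf_coe]
  rw [← h3]
  exact Odd.of_dvd_nat h h2

/-- A 2-element of `G` fixing four distinct points is trivial. -/
theorem Setup.two_elt {G : Subgroup (Perm α)} (S : Setup G) {b : Fin 4 → α}
    (hb : Function.Injective b) {g : Perm α} (hg : g ∈ G) (hfix : ∀ i, g (b i) = b i)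
    {e : ℕ} (he : g ^ 2 ^ e = 1) : g = 1 := by
  have h1 := S.odd_order hb hg hfix
  have h2 : orderOf g ∣ 2 ^ e := orderOf_dvd_of_pow_eq_one he
  have h3 : Nat.Coprime (orderOf g) (2 ^ e) :=
    Nat.Coprime.pow_right e (Nat.coprime_two_right.2 h1)
  have h4 : orderOf g = 1 := Nat.Coprime.eq_one_of_dvd h3 h2
  exact orderOf_eq_one_iff.1 h4

/-- Four pairwise distinct points as an injective family. -/
theorem inj4 {p q r t : α} (h1 : p ≠ q) (h2 : p ≠ r) (h3 : p ≠ t) (h4 : q ≠ r) (h5 : q ≠ t)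
    (h6 : r ≠ t) : Function.Injective ![p, q, r, t] := by
  intro i j hij
  fin_cases i <;> fin_cases j <;> simp_all

/-- An involution of `G` fixes no four distinct points. -/
theorem Setup.no_four {G : Subgroup (Perm α)} (S : Setup G) {t : Perm α} (ht : t ∈ G)
    (ht2 : t * t = 1) (ht1 : t ≠ 1) {p q r w : α} (h1 : p ≠ q) (h2 : p ≠ r) (h3 : p ≠ w)
    (h4 : q ≠ r) (h5 : q ≠ w) (h6 : r ≠ w) (fp : t p = p) (fq : t q = q) (fr : t r = r)
    (fw : t w = w) : False := by
  apply ht1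
  apply S.two_elt (b := ![p, q, r, w]) (inj4 h1 h2 h3 h4 h5 h6) ht (e := 1)
  · intro i
    fin_cases i <;> simp [fp, fq, fr, fw]
  · simpa [pow_two] using ht2

/-- The Witt-type lemma. -/
theorem Setup.witt {G : Subgroup (Perm α)} (S : Setup G) {a b : Fin 4 → α}
    (ha : Function.Injective a) (hb : Function.Injective b) {s u s' u' : Perm α}
    (hsG : s ∈ G) (huG : u ∈ G) (hs : s * s = 1) (hu : u * u = 1) (hc : s * u = u * s)
    (σ τ : Fin 4 → Fin 4) (h1 : ∀ i, s (a i) = a (σ i)) (h2 : ∀ i, u (a i) = a (τ i))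
    (h3 : ∀ i, s' (b i) = b (σ i)) (h4 : ∀ i, u' (b i) = b (τ i))
    (hs' : s' ∈ v4 s u hs hu hc) (hu' : u' ∈ v4 s u hs hu hc)
    (hperm : ∀ w ∈ v4 s u hs hu hc, ∀ i, ∃ j, w (b i) = b j)
    (hfaith : ∀ w ∈ v4 s u hs hu hc, (∀ i, w (b i) = b i) → w = 1) :
    ∃ g ∈ G, (∀ i, g (a i) = b i) ∧ g * s * g⁻¹ = s' ∧ g * u * g⁻¹ = u' := by
  obtain ⟨g₀, hg₀, hg₀a⟩ := S.trans a b ha hb
  set W := v4 s u hs hu hc with hW
  have hWG : W ≤ G := by
    intro w hw
    rcases hw with rfl | rfl | rfl | rfl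
    · exact G.one_mem
    · exact hsG
    · exact huG
    · exact G.mul_mem hsG huG
  -- conjugates
  let c₀ : Perm α →* Perm α := (MulAut.conj g₀).toMonoidHom
  have hc₀ : ∀ w, c₀ w = g₀ * w * g₀⁻¹ := fun w => rfl
  set W' : Subgroup (Perm α) := W.map c₀ with hW'
  have hg₀inv : ∀ i, g₀⁻¹ (b i) = a i := by
    intro i; rw [Perm.inv_eq_iff_eq]; exact (hg₀a i).symm
  have hnorm : W ≤ Subgroup.normalizer ((K4 G b : Subgroup (Perm α)) : Set (Perm α)) := by
    intro w hw
    rw [Subgroup.mem_normalizer_iff]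
    have key : ∀ w ∈ W, ∀ k ∈ K4 G b, w * k * w⁻¹ ∈ K4 G b := by
      intro w hw k hk
      refine ⟨G.mul_mem (G.mul_mem (hWG hw) hk.1) (G.inv_mem (hWG hw)), fun i => ?_⟩
      have hwinv : w⁻¹ = w := inv_eq_of_mul_eq_one_right (v4_sq hw)
      obtain ⟨j, hj⟩ := hperm w hw i
      rw [hwinv]
      simp only [Perm.mul_apply]
      rw [hj, hk.2 j, ← hj]
      have := congrArg (fun f : Perm α => f (b i)) (v4_sq hw)
      simpa [Perm.mul_apply] using this
    intro k
    constructor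
    · intro hk
      exact key w hw k hk
    · intro hk
      have := key w⁻¹ (W.inv_mem hw) _ hk
      simpa [mul_assoc] using this
  have hcard : Nat.card W' = Nat.card W := by
    rw [hW']
    exact Nat.card_congr (W.equivMapOfInjective c₀ (MulAut.conj g₀).injective).symm.toEquiv
  have hW'p : IsPGroup 2 W' := by
    intro y
    obtain ⟨w, hw, hwy⟩ := y.2
    have hy : (y : Perm α) = g₀ * w * g₀⁻¹ := hwy.symm
    have hww := v4_sq hw
    have : (y : Perm α) * y = 1 := by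
      rw [hy]
      calc g₀ * w * g₀⁻¹ * (g₀ * w * g₀⁻¹) = g₀ * (w * w) * g₀⁻¹ := by group
        _ = 1 := by rw [hww]; group
    refine ⟨1, Subtype.ext ?_⟩
    rw [pow_one, pow_two, Subgroup.coe_mul, this, Subgroup.coe_one]
  have hsconj : g₀ * s * g₀⁻¹ ∈ W ⊔ K4 G b := by
    have hk : s'⁻¹ * (g₀ * s * g₀⁻¹) ∈ K4 G b := by
      refine ⟨G.mul_mem (G.inv_mem (hWG hs')) (G.mul_mem (G.mul_mem hg₀ hsG) (G.inv_mem hg₀)),
        fun i => ?_⟩
      simp only [Perm.mul_apply]
      rw [hg₀inv, h1, hg₀a, Perm.inv_eq_iff_eq, h3]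
    have : g₀ * s * g₀⁻¹ = s' * (s'⁻¹ * (g₀ * s * g₀⁻¹)) := by group
    rw [this]
    exact Subgroup.mul_mem _ (Subgroup.mem_sup_left hs') (Subgroup.mem_sup_right hk)
  have huconj : g₀ * u * g₀⁻¹ ∈ W ⊔ K4 G b := by
    have hk : u'⁻¹ * (g₀ * u * g₀⁻¹) ∈ K4 G b := by
      refine ⟨G.mul_mem (G.inv_mem (hWG hu')) (G.mul_mem (G.mul_mem hg₀ huG) (G.inv_mem hg₀)),
        fun i => ?_⟩
      simp only [Perm.mul_apply]
      rw [hg₀inv, h2, hg₀a, Perm.inv_eq_iff_eq, h4]
    have : g₀ * u * g₀⁻¹ = u' * (u'⁻¹ * (g₀ * u * g₀⁻¹)) := by group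
    rw [this]
    exact Subgroup.mul_mem _ (Subgroup.mem_sup_left hu') (Subgroup.mem_sup_right hk)
  have hle : W' ≤ W ⊔ K4 G b := by
    rintro y ⟨w, hw, rfl⟩
    rcases hw with rfl | rfl | rfl | rfl
    · simp
    · exact hsconj
    · exact huconj
    · have : c₀ (s * u) = (g₀ * s * g₀⁻¹) * (g₀ * u * g₀⁻¹) := by
        rw [hc₀]; group
      rw [this]
      exact Subgroup.mul_mem _ hsconj huconj
  obtain ⟨k, hk, hkW⟩ := exists_conj_of_odd (K4 G b) W W' (S.odd b hb) v4_isP hW'p hnorm hcard hle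
  have hkinv : ∀ i, k⁻¹ (b i) = b i := by
    intro i; rw [Perm.inv_eq_iff_eq]; exact (hk.2 i).symm
  have hgmem : k * g₀ ∈ G := G.mul_mem hk.1 hg₀
  have hga : ∀ i, (k * g₀) (a i) = b i := by
    intro i
    simp only [Perm.mul_apply]
    rw [hg₀a, hk.2]
  -- the key uniqueness
  have huniq : ∀ y y' : Perm α, y ∈ W → y' ∈ W → (∀ i, y (b i) = y' (b i)) → y = y' := by
    intro y y' hy hy' hyy
    have h0 : y'⁻¹ * y = 1 := by
      apply hfaith _ (W.mul_mem (W.inv_mem hy') hy)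
      intro i
      simp only [Perm.mul_apply]
      rw [hyy, ← Perm.mul_apply, inv_mul_cancel]; rfl
    have := inv_mul_eq_one.1 h0
    exact this.symm
  refine ⟨k * g₀, hgmem, hga, ?_, ?_⟩
  · apply huniq
    · have := hkW _ (show c₀ s ∈ W' from ⟨s, Or.inr (Or.inl rfl), rfl⟩)
      rw [hc₀] at this
      have e : k * g₀ * s * (k * g₀)⁻¹ = k * (g₀ * s * g₀⁻¹) * k⁻¹ := by group
      rwa [e]
    · exact hs'
    · intro i
      simp only [Perm.mul_apply, mul_inv_rev]
      rw [hkinv, hg₀inv, h1, hg₀a, hk.2, h3]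
  · apply huniq
    · have := hkW _ (show c₀ u ∈ W' from ⟨u, Or.inr (Or.inr (Or.inl rfl)), rfl⟩)
      rw [hc₀] at this
      have e : k * g₀ * u * (k * g₀)⁻¹ = k * (g₀ * u * g₀⁻¹) * k⁻¹ := by group
      rwa [e]
    · exact hu'
    · intro i
      simp only [Perm.mul_apply, mul_inv_rev]
      rw [hkinv, hg₀inv, h2, hg₀a, hk.2, h4]

end Cfsg.Agent.Lib.FourTrans
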