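import Mathlib
import Cfsg.Agent.Lib.FourTrans.Basic

/-!
# Four-fold transitive groups: involutions
-/

set_option autoImplicit false

namespace Cfsg.Agent.Lib.FourTrans

open Equiv

universe u

variable {α : Type u} [Fintype α] [DecidableEq α]

/-- Passing from `g` to an odd power which is an involution on four points. -/
theorem Setup.inv_of_sq_fix {G : Subgroup (Perm α)} (S : Setup G) {b : Fin 4 → α}
    (hb : Function.Injective b) {g : Perm α} (hg : g ∈ G) (h2 : ∀ i, g (g (b i)) = b i) :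
    ∃ j : ℕ, Odd j ∧ (g ^ j) * (g ^ j) = 1 ∧ ∀ i, (g ^ j) (b i) = g (b i) := by
  have hn : orderOf g ≠ 0 := (orderOf_pos g).ne'
  obtain ⟨e, o, ho, hno⟩ := Nat.exists_eq_two_pow_mul_odd hn
  have hg2 : ∀ (l : ℕ) (i : Fin 4), (g ^ (2 * l)) (b i) = b i := by
    intro l i
    induction l with
    | zero => simp
    | succ l ih =>
      have : g ^ (2 * (l + 1)) = g ^ 2 * g ^ (2 * l) := by
        rw [← pow_add]; congr 1; ring
      rw [this, Perm.mul_apply, ih, pow_two, Perm.mul_apply, h2]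
  have hg2' : ∀ (l : ℕ) (i : Fin 4), (g ^ (2 * l)) (g (b i)) = g (b i) := by
    intro l i
    have : g ^ (2 * l) * g = g * g ^ (2 * l) := by
      rw [← pow_succ, ← pow_succ']
    have h := congrArg (fun f : Perm α => f (b i)) this
    simp only [Perm.mul_apply] at h
    rw [h, hg2]
  refine ⟨o, ho, ?_, ?_⟩
  · -- `x * x` is a 2-element fixing the four points
    obtain ⟨l, hl⟩ := ho
    have hx : g ^ o * g ^ o = g ^ (2 * o) := by rw [← pow_add, two_mul]
    rw [hx]
    apply S.two_elt hb (G.pow_mem hg _) (hg2 o) (e := e)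
    rw [← pow_mul]
    have : 2 * o * 2 ^ e = orderOf g * 2 := by rw [hno]; ring
    rw [this, pow_mul, pow_orderOf_eq_one, one_pow]
  · intro i
    obtain ⟨l, hl⟩ := ho
    rw [hl, pow_succ, Perm.mul_apply, hg2']

/-- Existence of an involution fixing two points and swapping two others. -/
theorem Setup.exists_inv_swap {G : Subgroup (Perm α)} (S : Setup G) {p q r t : α}
    (h1 : p ≠ q) (h2 : p ≠ r) (h3 : p ≠ t) (h4 : q ≠ r) (h5 : q ≠ t) (h6 : r ≠ t) :
    ∃ x ∈ G, x * x = 1 ∧ x p = p ∧ x q = q ∧ x r = t ∧ x t = r := by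
  obtain ⟨g, hg, hga⟩ := S.trans ![p, q, r, t] ![p, q, t, r] (inj4 h1 h2 h3 h4 h5 h6)
    (inj4 h1 h3 h2 h5 h4 h6.symm)
  have g0 := hga 0
  have g1 := hga 1
  have g2 := hga 2
  have g3 := hga 3
  simp only [Matrix.cons_val] at g0 g1 g2 g3
  obtain ⟨j, -, hj, hjb⟩ := S.inv_of_sq_fix (b := ![p, q, r, t]) (inj4 h1 h2 h3 h4 h5 h6) hg
    (by intro i; fin_cases i <;> simp [g0, g1, g2, g3])
  refine ⟨g ^ j, G.pow_mem hg _, hj, ?_, ?_, ?_, ?_⟩
  · simpa [g0] using hjb 0
  · simpa [g1] using hjb 1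
  · simpa [g2] using hjb 2
  · simpa [g3] using hjb 3

/-- Witt lemma for the single involution `s`. -/
theorem Setup.witt1 {G : Subgroup (Perm α)} (S : Setup G) {a b : Fin 4 → α}
    (ha : Function.Injective a) (hb : Function.Injective b) {s : Perm α}
    (hsG : s ∈ G) (hs : s * s = 1) (σ : Fin 4 → Fin 4) (h1 : ∀ i, s (a i) = a (σ i))
    (h3 : ∀ i, s (b i) = b (σ i)) (hm : ∃ i, σ i ≠ i) :
    ∃ g ∈ G, (∀ i, g (a i) = b i) ∧ g * s = s * g := by
  have hu : (1 : Perm α) * 1 = 1 := one_mul 1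
  have hc : s * 1 = 1 * s := by simp
  obtain ⟨g, hg, hga, hgs, -⟩ := S.witt ha hb hsG G.one_mem hs hu hc σ id h1 (fun i => rfl) h3
    (fun i => rfl) (Or.inr (Or.inl rfl)) (Or.inl rfl)
    (by
      rintro w (rfl | rfl | rfl | rfl) i
      · exact ⟨i, rfl⟩
      · exact ⟨σ i, h3 i⟩
      · exact ⟨i, rfl⟩
      · exact ⟨σ i, by simpa using h3 i⟩)
    (by
      obtain ⟨i, hi⟩ := hm
      have hmove : s (b i) ≠ b i := by
        rw [h3]; exact fun h => hi (hb h)
      rintro w (rfl | rfl | rfl | rfl) hw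
      · rfl
      · exact absurd (hw i) hmove
      · rfl
      · exact absurd (by simpa using hw i) hmove)
  exact ⟨g, hg, hga, mul_inv_eq_iff_eq_mul.1 hgs⟩

/-- `F3`: for an involution `s` and points `a`, `b` moved by `s` in different cycles, there is an
involution commuting with `s`, fixing `a, s a` and swapping `b, s b`. -/
theorem Setup.exists_comm_swap {G : Subgroup (Perm α)} (S : Setup G) {s : Perm α}
    (hsG : s ∈ G) (hs : s * s = 1) {a b : α} (ha : s a ≠ a) (hb : s b ≠ b) (hba : b ≠ a)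
    (hbsa : b ≠ s a) :
    ∃ x ∈ G, x * x = 1 ∧ x * s = s * x ∧ x a = a ∧ x (s a) = s a ∧ x b = s b ∧ x (s b) = b := by
  have ss : ∀ p, s (s p) = p := fun p => by
    have := congrArg (fun f : Perm α => f p) hs
    simpa [Perm.mul_apply] using this
  have h1 : a ≠ s a := ha.symm
  have h2 : a ≠ b := hba.symm
  have h3 : a ≠ s b := by
    intro h
    apply hbsa
    rw [h, ss]
  have h4 : s a ≠ b := hbsa.symm
  have h5 : s a ≠ s b := fun h => hba (s.injective h).symm
  have h6 : b ≠ s b := hb.symm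
  obtain ⟨g, hg, hga, hgs⟩ := S.witt1 (a := ![a, s a, s b, b]) (b := ![a, s a, b, s b])
    (inj4 h1 h3 h2 h5 h4 h6.symm) (inj4 h1 h2 h3 h4 h5 h6) hsG hs ![1, 0, 3, 2]
    (by intro i; fin_cases i <;> simp [ss])
    (by intro i; fin_cases i <;> simp [ss])
    ⟨0, by simp⟩
  have g0 := hga 0
  have g1 := hga 1
  have g2 := hga 2
  have g3 := hga 3
  simp only [Matrix.cons_val] at g0 g1 g2 g3
  obtain ⟨j, -, hj, hjb⟩ := S.inv_of_sq_fix (b := ![a, s a, b, s b]) (inj4 h1 h2 h3 h4 h5 h6) hg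
    (by intro i; fin_cases i <;> simp [g0, g1, g2, g3])
  have j0 := hjb 0
  have j1 := hjb 1
  have j2 := hjb 2
  have j3 := hjb 3
  simp only [Matrix.cons_val] at j0 j1 j2 j3
  refine ⟨g ^ j, G.pow_mem hg _, hj, ?_, ?_, ?_, ?_, ?_⟩
  · exact ((Commute.pow_left (show Commute g s from hgs) j)).eq
  · rw [j0, g0]
  · rw [j1, g1]
  · rw [j2, g3]
  · rw [j3, g2]

/-- `F4`. -/
theorem Setup.fix_of_comm {G : Subgroup (Perm α)} (S : Setup G) {t s : Perm α} (ht : t ∈ G)
    (ht2 : t * t = 1) (ht1 : t ≠ 1) (hc : t * s = s * t) (hs : s * s = 1) {a p : α}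
    (hsa : s a ≠ a) (h1 : t a = a) (h2 : t (s a) = s a) (hp : t p = p) (hsp : s p ≠ p) :
    p = a ∨ p = s a := by
  by_contra hcon
  push_neg at hcon
  have ss : ∀ p, s (s p) = p := fun p => by
    have := congrArg (fun f : Perm α => f p) hs
    simpa [Perm.mul_apply] using this
  have ts : t (s p) = s p := by
    have := congrArg (fun f : Perm α => f p) hc
    simp only [Perm.mul_apply] at this
    rw [this, hp]
  refine S.no_four ht ht2 ht1 (p := a) (q := s a) (r := p) (w := s p) hsa.symm hcon.1.symm ?_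
    hcon.2.symm ?_ hsp.symm h1 h2 hp ts
  · intro h
    apply hcon.2
    rw [h, ss]
  · intro h
    exact hcon.1 (s.injective h).symm

end Cfsg.Agent.Lib.FourTrans
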