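import Mathlib
import Cfsg.Agent.Lib.FourTrans.Inv

/-!
# Four-fold transitive groups: counting
-/

set_option autoImplicit false

namespace Cfsg.Agent.Lib.FourTrans

open Equiv

universe u

variable {α : Type u} [Fintype α] [DecidableEq α]

/-- Points moved by `s`. -/
def Moved (s : Perm α) : Finset α := Finset.univ.filter (fun p => s p ≠ p)

/-- Points fixed by `s`. -/
def Fixd (s : Perm α) : Finset α := Finset.univ.filter (fun p => s p = p)

theorem mem_Moved {s : Perm α} {p : α} : p ∈ Moved s ↔ s p ≠ p := by simp [Moved]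

theorem mem_Fixd {s : Perm α} {p : α} : p ∈ Fixd s ↔ s p = p := by simp [Fixd]

theorem card_moved_add (s : Perm α) : (Moved s).card + (Fixd s).card = Fintype.card α := by
  have := Finset.card_filter_add_card_filter_not (s := (Finset.univ : Finset α))
    (fun p => s p = p)
  rw [Finset.card_univ] at this
  rw [← this, add_comm]
  rfl

theorem apply_apply_of_sq {s : Perm α} (hs : s * s = 1) (p : α) : s (s p) = p := by
  have := congrArg (fun f : Perm α => f p) hs
  simpa [Perm.mul_apply] using this

theorem apply_comm {s x : Perm α} (hc : s * x = x * s) (p : α) : s (x p) = x (s p) := by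
  have := congrArg (fun f : Perm α => f p) hc
  simpa [Perm.mul_apply] using this

/-- Four divides a set on which `V₄` acts freely. -/
theorem four_dvd_of_free {s x : Perm α} (hs : s * s = 1) (hx : x * x = 1) (hc : s * x = x * s) :
    ∀ S : Finset α, (∀ p ∈ S, s p ∈ S) → (∀ p ∈ S, x p ∈ S) → (∀ p ∈ S, s p ≠ p) →
      (∀ p ∈ S, x p ≠ p) → (∀ p ∈ S, s (x p) ≠ p) → 4 ∣ S.card := by
  intro S
  induction S using Finset.strongInduction with
  | H S ih =>
    intro h1 h2 h3 h4 h5
    by_cases hne : S.Nonempty
    · obtain ⟨p, hp⟩ := hne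
      have ss := apply_apply_of_sq hs
      have xx := apply_apply_of_sq hx
      have sx := apply_comm hc
      have d1 : p ≠ s p := (h3 p hp).symm
      have d2 : p ≠ x p := (h4 p hp).symm
      have d3 : p ≠ s (x p) := (h5 p hp).symm
      have d4 : s p ≠ x p := by
        intro h
        apply h5 p hp
        rw [← h, ss]
      have d5 : s p ≠ s (x p) := fun h => d2 (s.injective h)
      have d6 : x p ≠ s (x p) := (h3 _ (h2 p hp)).symm
      set O : Finset α := {p, s p, x p, s (x p)} with hO
      have hOS : O ⊆ S := by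
        intro q hq
        simp only [hO, Finset.mem_insert, Finset.mem_singleton] at hq
        rcases hq with rfl | rfl | rfl | rfl
        · exact hp
        · exact h1 _ hp
        · exact h2 _ hp
        · exact h1 _ (h2 _ hp)
      have hOcard : O.card = 4 := by
        rw [hO, Finset.card_insert_of_notMem, Finset.card_insert_of_notMem,
          Finset.card_insert_of_notMem, Finset.card_singleton]
        · simpa using d6
        · simp [d4, d5]
        · simp [d1, d2, d3]
      have hsub : S \ O ⊂ S := by
        refine Finset.sdiff_ssubset hOS ⟨p, ?_⟩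
        simp [hO]
      have hq : ∀ q, q ∈ S \ O → q ∈ S ∧ q ≠ p ∧ q ≠ s p ∧ q ≠ x p ∧ q ≠ s (x p) := by
        intro q hq
        simp only [hO, Finset.mem_sdiff, Finset.mem_insert, Finset.mem_singleton, not_or] at hq
        exact ⟨hq.1, hq.2.1, hq.2.2.1, hq.2.2.2.1, hq.2.2.2.2⟩
      have hq' : ∀ q, q ∈ S → q ≠ p → q ≠ s p → q ≠ x p → q ≠ s (x p) → q ∈ S \ O := by
        intro q a1 a2 a3 a4 a5
        simp only [hO, Finset.mem_sdiff, Finset.mem_insert, Finset.mem_singleton, not_or]
        exact ⟨a1, a2, a3, a4, a5⟩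
      have := ih (S \ O) hsub
        (by
          intro q hq0
          obtain ⟨a1, a2, a3, a4, a5⟩ := hq q hq0
          refine hq' _ (h1 q a1) ?_ ?_ ?_ ?_
          · intro h; apply a3; rw [← h, ss]
          · intro h; exact a2 (s.injective h)
          · intro h; apply a5; rw [← h, ss]
          · intro h; exact a4 (s.injective h))
        (by
          intro q hq0
          obtain ⟨a1, a2, a3, a4, a5⟩ := hq q hq0
          refine hq' _ (h2 q a1) ?_ ?_ ?_ ?_
          · intro h; apply a4; rw [← h, xx]
          · intro h; apply a5; rw [sx, ← h, xx]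
          · intro h; exact a2 (x.injective h)
          · intro h; apply a3
            apply x.injective
            rw [h, sx])
        (fun q hq0 => h3 q (hq q hq0).1)
        (fun q hq0 => h4 q (hq q hq0).1)
        (fun q hq0 => h5 q (hq q hq0).1)
      have hc2 : S.card = (S \ O).card + 4 := by
        rw [← hOcard, Finset.card_sdiff_add_card_eq_card hOS]
      rw [hc2]
      exact Dvd.dvd.add this (dvd_refl 4)
    · rw [Finset.not_nonempty_iff_eq_empty] at hne
      rw [hne]; simp

/-- The action of the two commuting involutions around `(a, s a)` and `(b, s b)`. -/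
theorem Setup.moved_facts {G : Subgroup (Perm α)} (S : Setup G) {s x : Perm α}
    (hsG : s ∈ G) (hs : s * s = 1) (hxG : x ∈ G) (hx : x * x = 1) (hc : x * s = s * x)
    {a b : α} (ha : s a ≠ a) (hb : s b ≠ b) (xa : x a = a) (xsa : x (s a) = s a) (xb : x b = s b)
    (xsb : x (s b) = b) {p : α} (hp : s p ≠ p) (h1 : p ≠ a) (h2 : p ≠ s a) (h3 : p ≠ b)
    (h4 : p ≠ s b) : x p ≠ p ∧ s (x p) ≠ p := by
  have hx1 : x ≠ 1 := by
    rintro rfl
    exact hb xb.symm
  have ss := apply_apply_of_sq hs
  have sxc : s * x = x * s := hc.symm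
  have hy2 : (s * x) * (s * x) = 1 := by
    calc (s * x) * (s * x) = s * (x * s) * x := by group
      _ = s * (s * x) * x := by rw [hc]
      _ = (s * s) * (x * x) := by group
      _ = 1 := by rw [hs, hx, one_mul]
  have hy1 : s * x ≠ 1 := by
    intro h
    have := congrArg (fun f : Perm α => f a) h
    simp only [Perm.mul_apply, xa, Perm.coe_one, id_eq] at this
    exact ha this
  constructor
  · intro hxp
    rcases S.fix_of_comm hxG hx hx1 hc hs ha xa xsa hxp hp with h | h
    · exact h1 h
    · exact h2 h
  · intro hyp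
    have hyc : (s * x) * s = s * (s * x) := by rw [mul_assoc, hc]
    rcases S.fix_of_comm (a := b) (p := p) (G.mul_mem hsG hxG) hy2 hy1 hyc hs hb
        (by simp only [Perm.mul_apply]; rw [xb, ss])
        (by simp only [Perm.mul_apply]; rw [xsb])
        (by simpa only [Perm.mul_apply] using hyp) hp with h | h
    · exact h3 h
    · exact h4 h

/-- Four divides the number of moved points once `s` has two cycles. -/
theorem Setup.four_dvd_moved {G : Subgroup (Perm α)} (S : Setup G) {s : Perm α}
    (hsG : s ∈ G) (hs : s * s = 1) {a b : α} (ha : s a ≠ a) (hb : s b ≠ b) (hba : b ≠ a)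
    (hbsa : b ≠ s a) : 4 ∣ (Moved s).card := by
  obtain ⟨x, hxG, hx, hc, xa, xsa, xb, xsb⟩ := S.exists_comm_swap hsG hs ha hb hba hbsa
  have ss := apply_apply_of_sq hs
  have xx := apply_apply_of_sq hx
  have sx := apply_comm hc.symm
  have d1 : a ≠ s a := ha.symm
  have d2 : a ≠ b := hba.symm
  have d3 : a ≠ s b := by
    intro h; apply hbsa; rw [h, ss]
  have d4 : s a ≠ b := hbsa.symm
  have d5 : s a ≠ s b := fun h => hba (s.injective h).symm
  have d6 : b ≠ s b := hb.symm
  set O : Finset α := {a, s a, b, s b} with hO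
  have hOS : O ⊆ Moved s := by
    intro q hq
    simp only [hO, Finset.mem_insert, Finset.mem_singleton] at hq
    rw [mem_Moved]
    rcases hq with rfl | rfl | rfl | rfl
    · exact ha
    · rw [ss]; exact d1
    · exact hb
    · rw [ss]; exact d6
  have hOcard : O.card = 4 := by
    rw [hO, Finset.card_insert_of_notMem, Finset.card_insert_of_notMem,
      Finset.card_insert_of_notMem, Finset.card_singleton]
    · simpa using d6
    · simp [d4, d5]
    · simp [d1, d2, d3]
  have hq : ∀ q, q ∈ Moved s \ O → s q ≠ q ∧ q ≠ a ∧ q ≠ s a ∧ q ≠ b ∧ q ≠ s b := by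
    intro q hq
    simp only [hO, Finset.mem_sdiff, Finset.mem_insert, Finset.mem_singleton, not_or,
      mem_Moved] at hq
    exact ⟨hq.1, hq.2.1, hq.2.2.1, hq.2.2.2.1, hq.2.2.2.2⟩
  have hq' : ∀ q, s q ≠ q → q ≠ a → q ≠ s a → q ≠ b → q ≠ s b → q ∈ Moved s \ O := by
    intro q a1 a2 a3 a4 a5
    simp only [hO, Finset.mem_sdiff, Finset.mem_insert, Finset.mem_singleton, not_or, mem_Moved]
    exact ⟨a1, a2, a3, a4, a5⟩
  have key := four_dvd_of_free hs hx hc.symm (Moved s \ O)
    (by
      intro q hq0
      obtain ⟨a1, a2, a3, a4, a5⟩ := hq q hq0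
      refine hq' _ ?_ ?_ ?_ ?_ ?_
      · rw [ss]; exact a1.symm
      · intro h; apply a3; rw [← h, ss]
      · intro h; exact a2 (s.injective h)
      · intro h; apply a5; rw [← h, ss]
      · intro h; exact a4 (s.injective h))
    (by
      intro q hq0
      obtain ⟨a1, a2, a3, a4, a5⟩ := hq q hq0
      refine hq' _ ?_ ?_ ?_ ?_ ?_
      · rw [sx]
        intro h
        exact a1 (x.injective h)
      · intro h; apply a2; rw [← xa, ← h, xx]
      · intro h; apply a3; rw [← xsa, ← h, xx]
      · intro h; apply a5; rw [← xb, ← h, xx]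
      · intro h; apply a4; rw [← xsb, ← h, xx])
    (fun q hq0 => (hq q hq0).1)
    (fun q hq0 => by
      obtain ⟨a1, a2, a3, a4, a5⟩ := hq q hq0
      exact (S.moved_facts hsG hs hxG hx hc ha hb xa xsa xb xsb a1 a2 a3 a4 a5).1)
    (fun q hq0 => by
      obtain ⟨a1, a2, a3, a4, a5⟩ := hq q hq0
      exact (S.moved_facts hsG hs hxG hx hc ha hb xa xsa xb xsb a1 a2 a3 a4 a5).2)
  have hc2 : (Moved s).card = (Moved s \ O).card + 4 := by
    rw [← hOcard, Finset.card_sdiff_add_card_eq_card hOS]
  rw [hc2]
  exact Dvd.dvd.add key (dvd_refl 4)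

end Cfsg.Agent.Lib.FourTrans
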