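import Mathlib
import Cfsg.Agent.Lib.FourTrans.Count

/-!
# Four-fold transitive groups: orbit counting, the mod 8 condition
-/

set_option autoImplicit false

namespace Cfsg.Agent.Lib.FourTrans

open Equiv

universe u

variable {α : Type u} [Fintype α] [DecidableEq α]

/-- Stabilizer of `p` in the subgroup `C`. -/
def CP (C : Subgroup (Perm α)) (p : α) : Subgroup (Perm α) where
  carrier := {g | g ∈ C ∧ g p = p}
  mul_mem' := by
    rintro g h ⟨hg, hg'⟩ ⟨hh, hh'⟩
    exact ⟨C.mul_mem hg hh, by simp [Perm.mul_apply, hh', hg']⟩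
  one_mem' := ⟨C.one_mem, rfl⟩
  inv_mem' := by
    rintro g ⟨hg, hg'⟩
    refine ⟨C.inv_mem hg, ?_⟩
    rw [Perm.inv_eq_iff_eq]
    exact hg'.symm

theorem mem_CP {C : Subgroup (Perm α)} {p : α} {g : Perm α} : g ∈ CP C p ↔ g ∈ C ∧ g p = p :=
  Iff.rfl

theorem card_orbit_stab (C : Subgroup (Perm α)) (p : α) (O : Finset α)
    (hO : ∀ q, q ∈ O ↔ ∃ g ∈ C, g p = q) : Nat.card C = O.card * Nat.card (CP C p) := by
  have h1 := (MulAction.stabilizer C p).card_mul_index
  rw [MulAction.index_stabilizer] at h1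
  have h2 : MulAction.orbit C p = (O : Set α) := by
    ext q
    simp only [MulAction.mem_orbit_iff, Finset.mem_coe, hO]
    constructor
    · rintro ⟨g, rfl⟩
      exact ⟨g.1, g.2, rfl⟩
    · rintro ⟨g, hg, rfl⟩
      exact ⟨⟨g, hg⟩, rfl⟩
  rw [h2, Set.ncard_coe_finset] at h1
  have h3 : Nat.card (MulAction.stabilizer C p) = Nat.card (CP C p) := by
    apply Nat.card_congr
    exact
      { toFun := fun g => ⟨g.1.1, g.1.2, g.2⟩
        invFun := fun h => ⟨⟨h.1, h.2.1⟩, h.2.2⟩
        left_inv := fun g => rfl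
        right_inv := fun h => rfl }
  rw [← h1, h3, mul_comm]

/-- The centralizer in `G` of `s` and `u`. -/
def Cen (G : Subgroup (Perm α)) (s u : Perm α) : Subgroup (Perm α) where
  carrier := {g | g ∈ G ∧ g * s = s * g ∧ g * u = u * g}
  mul_mem' := by
    rintro g h ⟨hg, hg1, hg2⟩ ⟨hh, hh1, hh2⟩
    refine ⟨G.mul_mem hg hh, ?_, ?_⟩
    · rw [mul_assoc, hh1, ← mul_assoc, hg1, mul_assoc]
    · rw [mul_assoc, hh2, ← mul_assoc, hg2, mul_assoc]
  one_mem' := ⟨G.one_mem, by simp, by simp⟩
  inv_mem' := by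
    rintro g ⟨hg, hg1, hg2⟩
    refine ⟨G.inv_mem hg, ?_, ?_⟩
    · rw [inv_mul_eq_iff_eq_mul, ← mul_assoc, hg1, mul_assoc, mul_inv_cancel, mul_one]
    · rw [inv_mul_eq_iff_eq_mul, ← mul_assoc, hg2, mul_assoc, mul_inv_cancel, mul_one]

theorem mem_Cen {G : Subgroup (Perm α)} {s u g : Perm α} :
    g ∈ Cen G s u ↔ g ∈ G ∧ g * s = s * g ∧ g * u = u * g := Iff.rfl

/-- Regular orbits of a commuting pair: the Witt lemma gives an element of the centralizer. -/
theorem Setup.witt_reg {G : Subgroup (Perm α)} (S : Setup G) {s u : Perm α}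
    (hsG : s ∈ G) (huG : u ∈ G) (hs : s * s = 1) (hu : u * u = 1) (hc : s * u = u * s) {p q : α}
    (hp1 : s p ≠ p) (hp2 : u p ≠ p) (hp3 : s (u p) ≠ p)
    (hq1 : s q ≠ q) (hq2 : u q ≠ q) (hq3 : s (u q) ≠ q) :
    ∃ g ∈ G, g p = q ∧ g * s = s * g ∧ g * u = u * g := by
  have ss := apply_apply_of_sq hs
  have uu := apply_apply_of_sq hu
  have su := apply_comm hc
  have inj : ∀ {r : α}, s r ≠ r → u r ≠ r → s (u r) ≠ r →
      Function.Injective ![r, s r, u r, s (u r)] := by
    intro r h1 h2 h3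
    refine inj4 h1.symm h2.symm h3.symm ?_ ?_ ?_
    · intro h; apply h3; rw [← h, ss]
    · intro h; exact h2 (s.injective h).symm
    · intro h
      apply h1
      apply u.injective
      rw [← su, ← h]
  have pa : ∀ r : α, ∀ i : Fin 4, s ((![r, s r, u r, s (u r)] : Fin 4 → α) i)
      = (![r, s r, u r, s (u r)] : Fin 4 → α) ((![1, 0, 3, 2] : Fin 4 → Fin 4) i) := by
    intro r i; fin_cases i <;> simp [ss]
  have pb : ∀ r : α, ∀ i : Fin 4, u ((![r, s r, u r, s (u r)] : Fin 4 → α) i)
      = (![r, s r, u r, s (u r)] : Fin 4 → α) ((![2, 3, 0, 1] : Fin 4 → Fin 4) i) := by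
    intro r i; fin_cases i <;> simp [ss, uu, su]
  obtain ⟨g, hg, hga, hg1, hg2⟩ := S.witt (inj hp1 hp2 hp3) (inj hq1 hq2 hq3) hsG huG hs hu hc
    ![1, 0, 3, 2] ![2, 3, 0, 1] (pa p) (pb p) (pa q) (pb q) (Or.inr (Or.inl rfl))
    (Or.inr (Or.inr (Or.inl rfl)))
    (by
      rintro w (rfl | rfl | rfl | rfl) i
      · exact ⟨i, rfl⟩
      · exact ⟨_, pa q i⟩
      · exact ⟨_, pb q i⟩
      · refine ⟨![1, 0, 3, 2] (![2, 3, 0, 1] i), ?_⟩
        rw [Perm.mul_apply, pb, pa])
    (by
      rintro w (rfl | rfl | rfl | rfl) hw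
      · rfl
      · exact absurd (hw 0) (by simpa using hq1)
      · exact absurd (hw 0) (by simpa using hq2)
      · exact absurd (hw 0) (by simpa [Perm.mul_apply] using hq3))
  refine ⟨g, hg, by simpa using hga 0, mul_inv_eq_iff_eq_mul.1 hg1, mul_inv_eq_iff_eq_mul.1 hg2⟩

/-- An odd-order bound via `K4`. -/
theorem Setup.odd_of_le_K4 {G : Subgroup (Perm α)} (S : Setup G) {b : Fin 4 → α}
    (hb : Function.Injective b) {D : Subgroup (Perm α)} (hD : D ≤ K4 G b) : Odd (Nat.card D) :=
  Odd.of_dvd_nat (S.odd b hb) (Subgroup.card_dvd_of_le hD)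

/-- The mod 8 condition. -/
theorem Setup.not_mod8 {G : Subgroup (Perm α)} (S : Setup G) {s : Perm α}
    (hsG : s ∈ G) (hs : s * s = 1) {a b : α} (ha : s a ≠ a) (hb : s b ≠ b) (hba : b ≠ a)
    (hbsa : b ≠ s a) (hne : (Moved s).card ≠ 4) : ¬ 8 ∣ (Moved s).card - 4 := by
  intro h8
  obtain ⟨x, hxG, hx, hc, xa, xsa, xb, xsb⟩ := S.exists_comm_swap hsG hs ha hb hba hbsa
  have ss := apply_apply_of_sq hs
  have xx := apply_apply_of_sq hx
  have sx := apply_comm hc.symm
  have d1 : a ≠ s a := ha.symm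
  have d2 : a ≠ b := hba.symm
  have d3 : a ≠ s b := by
    intro h; apply hbsa; rw [h, ss]
  have d4 : s a ≠ b := hbsa.symm
  have d5 : s a ≠ s b := fun h => hba (s.injective h).symm
  have d6 : b ≠ s b := hb.symm
  set O : Finset α := {a, s a, b, s b} with hO
  have hOS : O ⊆ Moved s := by
    intro q hq
    simp only [hO, Finset.mem_insert, Finset.mem_singleton] at hq
    rw [mem_Moved]
    rcases hq with rfl | rfl | rfl | rfl
    · exact ha
    · rw [ss]; exact d1
    · exact hb
    · rw [ss]; exact d6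
  have hOcard : O.card = 4 := by
    rw [hO, Finset.card_insert_of_notMem, Finset.card_insert_of_notMem,
      Finset.card_insert_of_notMem, Finset.card_singleton]
    · simpa using d6
    · simp [d4, d5]
    · simp [d1, d2, d3]
  have hc2 : (Moved s).card = (Moved s \ O).card + 4 := by
    rw [← hOcard, Finset.card_sdiff_add_card_eq_card hOS]
  have hS₀ : (Moved s \ O).card ≠ 0 := by
    intro h
    rw [h] at hc2
    exact hne hc2
  have h8' : 8 ∣ (Moved s \ O).card := by
    have : (Moved s).card - 4 = (Moved s \ O).card := by omega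
    rwa [this] at h8
  have hq : ∀ q, q ∈ Moved s \ O → s q ≠ q ∧ q ≠ a ∧ q ≠ s a ∧ q ≠ b ∧ q ≠ s b := by
    intro q hq
    simp only [hO, Finset.mem_sdiff, Finset.mem_insert, Finset.mem_singleton, not_or,
      mem_Moved] at hq
    exact ⟨hq.1, hq.2.1, hq.2.2.1, hq.2.2.2.1, hq.2.2.2.2⟩
  have hq' : ∀ q, s q ≠ q → q ≠ a → q ≠ s a → q ≠ b → q ≠ s b → q ∈ Moved s \ O := by
    intro q a1 a2 a3 a4 a5
    simp only [hO, Finset.mem_sdiff, Finset.mem_insert, Finset.mem_singleton, not_or, mem_Moved]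
    exact ⟨a1, a2, a3, a4, a5⟩
  have hfacts : ∀ q, q ∈ Moved s \ O → s q ≠ q ∧ x q ≠ q ∧ s (x q) ≠ q := by
    intro q hq0
    obtain ⟨a1, a2, a3, a4, a5⟩ := hq q hq0
    obtain ⟨c1, c2⟩ := S.moved_facts hsG hs hxG hx hc ha hb xa xsa xb xsb a1 a2 a3 a4 a5
    exact ⟨a1, c1, c2⟩
  obtain ⟨p, hp⟩ := Finset.card_pos.1 (Nat.pos_of_ne_zero hS₀)
  obtain ⟨p1, p2, p3⟩ := hfacts p hp
  set C := Cen G s x with hC
  -- the orbit of `p`
  have hyc : (s * x) * s = s * (s * x) := by rw [mul_assoc, hc]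
  have hx1 : x ≠ 1 := by
    rintro rfl
    exact hb xb.symm
  have hy2 : (s * x) * (s * x) = 1 := by
    calc (s * x) * (s * x) = s * (x * s) * x := by group
      _ = s * (s * x) * x := by rw [hc]
      _ = (s * s) * (x * x) := by group
      _ = 1 := by rw [hs, hx, one_mul]
  have hy1 : s * x ≠ 1 := by
    intro h
    have := congrArg (fun f : Perm α => f a) h
    simp only [Perm.mul_apply, xa, Perm.coe_one, id_eq] at this
    exact ha this
  have comm_s : ∀ g ∈ C, ∀ r, g (s r) = s (g r) := fun g hg r => by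
    have := congrArg (fun f : Perm α => f r) hg.2.1
    simpa [Perm.mul_apply] using this
  have comm_x : ∀ g ∈ C, ∀ r, g (x r) = x (g r) := fun g hg r => by
    have := congrArg (fun f : Perm α => f r) hg.2.2
    simpa [Perm.mul_apply] using this
  have orbp : Nat.card C = (Moved s \ O).card * Nat.card (CP C p) := by
    apply card_orbit_stab
    intro q
    constructor
    · intro hq0
      obtain ⟨q1, q2, q3⟩ := hfacts q hq0
      obtain ⟨g, hg, hgp, hg1, hg2⟩ := S.witt_reg hsG hxG hs hx hc.symm p1 p2 p3 q1 q2 q3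
      exact ⟨g, ⟨hg, hg1, hg2⟩, hgp⟩
    · rintro ⟨g, hg, rfl⟩
      refine hq' _ ?_ ?_ ?_ ?_ ?_
      · rw [← comm_s g hg]
        intro h
        exact p1 (g.injective h)
      · intro h
        apply p2
        apply g.injective
        rw [comm_x g hg, h, xa]
      · intro h
        apply p2
        apply g.injective
        rw [comm_x g hg, h, xsa]
      · intro h
        apply p3
        apply g.injective
        rw [comm_s g hg, comm_x g hg, h, xb, ss]
      · intro h
        apply p3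
        apply g.injective
        rw [comm_s g hg, comm_x g hg, h, xsb]
  have injp : Function.Injective ![p, s p, x p, s (x p)] := by
    refine inj4 p1.symm p2.symm p3.symm ?_ ?_ ?_
    · intro h; apply p3; rw [← h, ss]
    · intro h; exact p2 (s.injective h).symm
    · intro h
      apply p1
      apply x.injective
      rw [← sx, ← h]
  have oddp : Odd (Nat.card (CP C p)) := by
    apply S.odd_of_le_K4 injp
    rintro g ⟨hg, hgp⟩
    refine ⟨hg.1, fun i => ?_⟩
    fin_cases i
    · simpa using hgp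
    · simpa [comm_s g hg] using hgp
    · simpa [comm_x g hg] using hgp
    · simpa [comm_s g hg, comm_x g hg] using hgp
  have h8C : 8 ∣ Nat.card C := by
    rw [orbp]; exact Dvd.dvd.mul_right h8' _
  -- the other side
  classical
  set A₁ : Finset α := ({a, s a} : Finset α).filter (fun q => ∃ g ∈ C, g a = q) with hA₁
  have orba : Nat.card C = A₁.card * Nat.card (CP C a) := by
    apply card_orbit_stab
    intro q
    simp only [hA₁, Finset.mem_filter, Finset.mem_insert, Finset.mem_singleton]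
    constructor
    · exact fun h => h.2
    · rintro ⟨g, hg, rfl⟩
      refine ⟨?_, g, hg, rfl⟩
      have hm : s (g a) ≠ g a := by
        rw [← comm_s g hg]
        intro h; exact ha (g.injective h)
      have hf : x (g a) = g a := by rw [← comm_x g hg, xa]
      exact S.fix_of_comm hxG hx hx1 hc hs ha xa xsa hf hm
  set D := CP C a with hD
  set A₂ : Finset α := ({b, s b} : Finset α).filter (fun q => ∃ g ∈ D, g b = q) with hA₂
  have orbb : Nat.card D = A₂.card * Nat.card (CP D b) := by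
    apply card_orbit_stab
    intro q
    simp only [hA₂, Finset.mem_filter, Finset.mem_insert, Finset.mem_singleton]
    constructor
    · exact fun h => h.2
    · rintro ⟨g, hg, rfl⟩
      refine ⟨?_, g, hg, rfl⟩
      have hgC : g ∈ C := hg.1
      have hm : s (g b) ≠ g b := by
        rw [← comm_s g hgC]
        intro h; exact hb (g.injective h)
      have hf : (s * x) (g b) = g b := by
        simp only [Perm.mul_apply]
        rw [← comm_x g hgC, ← comm_s g hgC, xb, ss]
      exact S.fix_of_comm (G.mul_mem hsG hxG) hy2 hy1 hyc hs hb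
        (by simp only [Perm.mul_apply]; rw [xb, ss])
        (by simp only [Perm.mul_apply]; rw [xsb]) hf hm
  have oddab : Odd (Nat.card (CP D b)) := by
    apply S.odd_of_le_K4 (b := ![a, s a, b, s b]) (inj4 d1 d2 d3 d4 d5 d6)
    rintro g ⟨hg, hgb⟩
    have hgD : g ∈ C := hg.1
    have hga : g a = a := hg.2
    refine ⟨hgD.1, fun i => ?_⟩
    fin_cases i
    · simpa using hga
    · simpa [comm_s g hgD] using hga
    · simpa using hgb
    · simpa [comm_s g hgD] using hgb
  have cA₁ : A₁.card ≤ 2 := (Finset.card_filter_le _ _).trans Finset.card_le_two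
  have cA₂ : A₂.card ≤ 2 := (Finset.card_filter_le _ _).trans Finset.card_le_two
  have cA₁' : 0 < A₁.card := by
    have : 0 < Nat.card C := Nat.card_pos
    rw [orba] at this
    exact Nat.pos_of_mul_pos_right this |> fun h => h
  have cA₂' : 0 < A₂.card := by
    have : 0 < Nat.card D := Nat.card_pos
    rw [orbb] at this
    exact Nat.pos_of_mul_pos_right this |> fun h => h
  rw [orba, orbb, ← mul_assoc] at h8C
  have hco : Nat.Coprime 8 (Nat.card (CP D b)) := by
    have : (8 : ℕ) = 2 ^ 3 := by norm_num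
    rw [this]
    exact Nat.Coprime.pow_left 3 (Nat.coprime_two_left.2 oddab)
  have h9 : 8 ∣ A₁.card * A₂.card := hco.dvd_of_dvd_mul_right h8C
  have h10 : A₁.card * A₂.card ≤ 4 := by nlinarith
  have h11 : 0 < A₁.card * A₂.card := Nat.mul_pos cA₁' cA₂'
  have := Nat.le_of_dvd h11 h9
  omega

end Cfsg.Agent.Lib.FourTrans
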