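import Mathlib
import Cfsg.Agent.Lib.FourTrans.Orbit

/-!
# Four-fold transitive groups: excluding four-groups in the pointwise stabilizer of `Fix(s)`
-/

set_option autoImplicit false

namespace Cfsg.Agent.Lib.FourTrans

open Equiv

universe u

/-- An involutive endomorphism acting on a quotient of even order fixes an element of order 2. -/
theorem exists_fixed_inv_mod {Γ : Type*} [Group Γ] [Finite Γ] (W : Subgroup Γ) [W.Normal]
    (τ : Γ →* Γ) (hτ : ∀ c, τ (τ c) = c) (hW : ∀ w ∈ W, τ w ∈ W) (h2 : 2 ∣ W.index) :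
    ∃ c, c ∉ W ∧ c * c ∈ W ∧ c⁻¹ * τ c ∈ W := by
  classical
  haveI : Fact (Nat.Prime 2) := ⟨Nat.prime_two⟩
  let τb : (Γ ⧸ W) →* (Γ ⧸ W) := QuotientGroup.map W W τ (fun w hw => hW w hw)
  have hτb : ∀ l, τb (τb l) = l := by
    intro l
    induction l using QuotientGroup.induction_on with
    | H c =>
      have h0 : τb (τb (c : Γ ⧸ W)) = ((τ (τ c) : Γ) : Γ ⧸ W) := rfl
      rw [h0, hτ]
  haveI : Fintype (Γ ⧸ W) := Fintype.ofFinite _
  let σ : Perm (Γ ⧸ W) := Function.Involutive.toPerm (fun l => τb l) hτb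
  have hσ : σ ^ 2 ^ 1 = 1 := by
    ext l
    simp only [pow_one, pow_two, Perm.mul_apply, Perm.coe_one, id_eq]
    exact hτb l
  have hmod := Equiv.Perm.card_compl_support_modEq hσ
  have hL : 2 ∣ Fintype.card (Γ ⧸ W) := by
    rw [← Nat.card_eq_fintype_card]; exact h2
  have hfix : 2 ∣ (σ.support)ᶜ.card :=
    (Nat.ModEq.dvd_iff hmod (dvd_refl 2)).2 hL
  let F : Subgroup (Γ ⧸ W) := MonoidHom.eqLocus τb (MonoidHom.id _)
  have hF : Nat.card F = (σ.support)ᶜ.card := by
    rw [← Fintype.card_coe, ← Nat.card_eq_fintype_card]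
    apply Nat.card_congr
    refine
      { toFun := fun l => ⟨l.1, ?_⟩
        invFun := fun l => ⟨l.1, ?_⟩
        left_inv := fun _ => rfl
        right_inv := fun _ => rfl }
    · simp only [Finset.mem_compl, Perm.mem_support, not_not]
      exact l.2
    · have h := l.2
      simp only [Finset.mem_compl, Perm.mem_support, not_not] at h
      exact h
  have hF2 : 2 ∣ Nat.card F := by rw [hF]; exact hfix
  obtain ⟨l, hl⟩ := exists_prime_orderOf_dvd_card' 2 hF2
  obtain ⟨c, hc⟩ := QuotientGroup.mk_surjective (l : Γ ⧸ W)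
  have hl1 : (l : Γ ⧸ W) ≠ 1 := by
    intro h
    have : l = 1 := Subtype.ext h
    rw [this, orderOf_one] at hl
    omega
  have hl2 : (l : Γ ⧸ W) * l = 1 := by
    have : l ^ 2 = 1 := by rw [← hl]; exact pow_orderOf_eq_one l
    have h := congrArg Subtype.val this
    simpa [pow_two] using h
  have hl3 : τb (l : Γ ⧸ W) = l := l.2
  refine ⟨c, ?_, ?_, ?_⟩
  · intro h
    apply hl1
    rw [← hc]
    exact (QuotientGroup.eq_one_iff c).2 h
  · rw [← QuotientGroup.eq_one_iff]
    rw [QuotientGroup.mk_mul, hc, hl2]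
  · rw [← QuotientGroup.eq]
    rw [hc]
    have : ((τ c : Γ) : Γ ⧸ W) = τb (c : Γ ⧸ W) := rfl
    rw [this, hc, hl3]

variable {α : Type u} [Fintype α] [DecidableEq α]

/-- Four-groups in the pointwise stabilizer of `Fix s` do not exist when 8 divides the number of
moved points. -/
theorem Setup.no_v4 {G : Subgroup (Perm α)} (S : Setup G) {s u : Perm α}
    (hsG : s ∈ G) (huG : u ∈ G) (hs : s * s = 1) (hu : u * u = 1) (hs1 : s ≠ 1) (hu1 : u ≠ 1)
    (hsu : s ≠ u) (hc : s * u = u * s) (hfix : ∀ q, s q = q → u q = q)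
    (huni : ∀ t ∈ G, t * t = 1 → t ≠ 1 → (Fixd t).card = (Fixd s).card)
    (h8 : 8 ∣ (Moved s).card) : False := by
  have ss := apply_apply_of_sq hs
  have uu := apply_apply_of_sq hu
  have su := apply_comm hc
  have hsu2 : (s * u) * (s * u) = 1 := by
    calc (s * u) * (s * u) = s * (u * s) * u := by group
      _ = s * (s * u) * u := by rw [hc]
      _ = (s * s) * (u * u) := by group
      _ = 1 := by rw [hs, hu, one_mul]
  have hsu1 : s * u ≠ 1 := by
    intro h
    apply hsu
    have : s = u⁻¹ := eq_inv_of_mul_eq_one_left h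
    rw [this]
    exact inv_eq_of_mul_eq_one_right hu
  have hsubu : Fixd s ⊆ Fixd u := by
    intro q hq
    rw [mem_Fixd] at hq ⊢
    exact hfix q hq
  have hequ : Fixd s = Fixd u :=
    Finset.eq_of_subset_of_card_le hsubu (huni u huG hu hu1).le
  have hsubsu : Fixd s ⊆ Fixd (s * u) := by
    intro q hq
    rw [mem_Fixd] at hq ⊢
    simp only [Perm.mul_apply]
    rw [hfix q hq, hq]
  have hequs : Fixd s = Fixd (s * u) :=
    Finset.eq_of_subset_of_card_le hsubsu (huni _ (G.mul_mem hsG huG) hsu2 hsu1).le
  have mu : ∀ p, s p ≠ p → u p ≠ p := by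
    intro p hp h
    apply hp
    have : p ∈ Fixd u := mem_Fixd.2 h
    rw [← hequ] at this
    exact mem_Fixd.1 this
  have msu : ∀ p, s p ≠ p → s (u p) ≠ p := by
    intro p hp h
    apply hp
    have : p ∈ Fixd (s * u) := mem_Fixd.2 (by simpa only [Perm.mul_apply] using h)
    rw [← hequs] at this
    exact mem_Fixd.1 this
  -- a moved point
  obtain ⟨a, ha⟩ : ∃ a, s a ≠ a := by
    by_contra hcon
    push_neg at hcon
    exact hs1 (Equiv.ext hcon)
  have ua := mu a ha
  have sua := msu a ha
  have inja : Function.Injective ![a, s a, u a, s (u a)] := by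
    refine inj4 ha.symm ua.symm sua.symm ?_ ?_ ?_
    · intro h; apply sua; rw [← h, ss]
    · intro h; exact ua (s.injective h).symm
    · intro h
      apply ha
      apply u.injective
      rw [← su, ← h]
  set C := Cen G s u with hC
  have comm_s : ∀ g ∈ C, ∀ r, g (s r) = s (g r) := fun g hg r => by
    have := congrArg (fun f : Perm α => f r) hg.2.1
    simpa [Perm.mul_apply] using this
  have comm_u : ∀ g ∈ C, ∀ r, g (u r) = u (g r) := fun g hg r => by
    have := congrArg (fun f : Perm α => f r) hg.2.2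
    simpa [Perm.mul_apply] using this
  have orba : Nat.card C = (Moved s).card * Nat.card (CP C a) := by
    apply card_orbit_stab
    intro q
    rw [mem_Moved]
    constructor
    · intro hq
      obtain ⟨g, hg, hga, hg1, hg2⟩ := S.witt_reg hsG huG hs hu hc ha ua sua hq (mu q hq) (msu q hq)
      exact ⟨g, ⟨hg, hg1, hg2⟩, hga⟩
    · rintro ⟨g, hg, rfl⟩
      rw [← comm_s g hg]
      intro h
      exact ha (g.injective h)
  have fixall : ∀ g ∈ G, g * s = s * g → g * u = u * g → g a = a →
      g ∈ K4 G ![a, s a, u a, s (u a)] := by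
    intro g hg h1 h2 hga
    have c1 : ∀ r, g (s r) = s (g r) := fun r => by
      have := congrArg (fun f : Perm α => f r) h1
      simpa [Perm.mul_apply] using this
    have c2 : ∀ r, g (u r) = u (g r) := fun r => by
      have := congrArg (fun f : Perm α => f r) h2
      simpa [Perm.mul_apply] using this
    refine ⟨hg, fun i => ?_⟩
    fin_cases i
    · simpa using hga
    · simp [c1, hga]
    · simp [c2, hga]
    · simp [c1, c2, hga]
  have odda : Odd (Nat.card (CP C a)) := by
    apply S.odd_of_le_K4 inja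
    rintro g ⟨hg, hga⟩
    exact fixall g hg.1 hg.2.1 hg.2.2 hga
  have h8C : 8 ∣ Nat.card C := by
    rw [orba]; exact Dvd.dvd.mul_right h8 _
  -- the twisting involution
  have injb : Function.Injective ![a, s a, s (u a), u a] := by
    intro i j hij
    have key : ∀ i : Fin 4, (![a, s a, s (u a), u a] : Fin 4 → α) i
        = (![a, s a, u a, s (u a)] : Fin 4 → α) ((![0, 1, 3, 2] : Fin 4 → Fin 4) i) := by
      intro i; fin_cases i <;> simp
    rw [key, key] at hij
    have := inja hij
    fin_cases i <;> fin_cases j <;> simp_all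
  have pa1 : ∀ i, s ((![a, s a, s (u a), u a] : Fin 4 → α) i)
      = (![a, s a, s (u a), u a] : Fin 4 → α) ((![1, 0, 3, 2] : Fin 4 → Fin 4) i) := by
    intro i; fin_cases i <;> simp [ss]
  have pa2 : ∀ i, u ((![a, s a, s (u a), u a] : Fin 4 → α) i)
      = (![a, s a, s (u a), u a] : Fin 4 → α) ((![3, 2, 1, 0] : Fin 4 → Fin 4) i) := by
    intro i; fin_cases i <;> simp [su, uu]
  have pb1 : ∀ i, s ((![a, s a, u a, s (u a)] : Fin 4 → α) i)
      = (![a, s a, u a, s (u a)] : Fin 4 → α) ((![1, 0, 3, 2] : Fin 4 → Fin 4) i) := by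
    intro i; fin_cases i <;> simp [ss]
  have pb2 : ∀ i, (s * u) ((![a, s a, u a, s (u a)] : Fin 4 → α) i)
      = (![a, s a, u a, s (u a)] : Fin 4 → α) ((![3, 2, 1, 0] : Fin 4 → Fin 4) i) := by
    intro i; fin_cases i <;> simp [Perm.mul_apply, su, uu, ss]
  have pb3 : ∀ i, u ((![a, s a, u a, s (u a)] : Fin 4 → α) i)
      = (![a, s a, u a, s (u a)] : Fin 4 → α) ((![2, 3, 0, 1] : Fin 4 → Fin 4) i) := by
    intro i; fin_cases i <;> simp [su, uu]
  obtain ⟨g, hg, hga, hg1, hg2⟩ := S.witt injb inja hsG huG hs hu hc ![1, 0, 3, 2] ![3, 2, 1, 0]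
    pa1 pa2 pb1 pb2 (Or.inr (Or.inl rfl)) (Or.inr (Or.inr (Or.inr rfl)))
    (by
      rintro w (rfl | rfl | rfl | rfl) i
      · exact ⟨i, rfl⟩
      · exact ⟨_, pb1 i⟩
      · exact ⟨_, pb3 i⟩
      · exact ⟨_, pb2 i⟩)
    (by
      rintro w (rfl | rfl | rfl | rfl) hw
      · rfl
      · exact absurd (hw 0) (by simpa using ha)
      · exact absurd (hw 0) (by simpa using ua)
      · exact absurd (hw 0) (by simpa [Perm.mul_apply] using sua))
  have g0 := hga 0
  have g1 := hga 1
  have g2 := hga 2
  have g3 := hga 3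
  simp only [Matrix.cons_val] at g0 g1 g2 g3
  obtain ⟨j, hjodd, hj, hjb⟩ := S.inv_of_sq_fix inja hg
    (by intro i; fin_cases i <;> simp [g0, g1, g2, g3])
  have j0 := hjb 0
  have j1 := hjb 1
  have j2 := hjb 2
  have j3 := hjb 3
  simp only [Matrix.cons_val] at j0 j1 j2 j3
  set x := g ^ j with hx
  have hxG : x ∈ G := G.pow_mem hg _
  have xa : x a = a := by rw [j0, g0]
  have xsa : x (s a) = s a := by rw [j1, g1]
  have xua : x (u a) = s (u a) := by rw [j2, g3]
  have xsua : x (s (u a)) = u a := by rw [j3, g2]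
  have hgs : g * s = s * g := mul_inv_eq_iff_eq_mul.1 hg1
  have hgu : g * u = (s * u) * g := mul_inv_eq_iff_eq_mul.1 hg2
  have hxs : x * s = s * x := (Commute.pow_left (show Commute g s from hgs) j).eq
  have hg2u : (g * g) * u = u * (g * g) := by
    calc (g * g) * u = g * (g * u) := by group
      _ = g * ((s * u) * g) := by rw [hgu]
      _ = (g * s) * (u * g) := by group
      _ = (s * g) * (u * g) := by rw [hgs]
      _ = s * (g * u) * g := by group
      _ = s * ((s * u) * g) * g := by rw [hgu]
      _ = (s * s) * u * (g * g) := by group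
      _ = u * (g * g) := by rw [hs, one_mul]
  have hg2s : (g * g) * s = s * (g * g) := by
    calc (g * g) * s = g * (g * s) := by group
      _ = g * (s * g) := by rw [hgs]
      _ = (g * s) * g := by group
      _ = (s * g) * g := by rw [hgs]
      _ = s * (g * g) := by group
  obtain ⟨l, hl⟩ := hjodd
  have hxu : x * u = (s * u) * x := by
    have c1 : Commute ((g * g) ^ l) u := Commute.pow_left (show Commute (g * g) u from hg2u) l
    have c2 : Commute ((g * g) ^ l) s := Commute.pow_left (show Commute (g * g) s from hg2s) l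
    have e : x = (g * g) ^ l * g := by
      rw [hx, hl, pow_succ, pow_mul, pow_two]
    rw [e]
    calc (g * g) ^ l * g * u = (g * g) ^ l * (g * u) := by group
      _ = (g * g) ^ l * ((s * u) * g) := by rw [hgu]
      _ = ((g * g) ^ l * s) * u * g := by group
      _ = (s * (g * g) ^ l) * u * g := by rw [c2.eq]
      _ = s * ((g * g) ^ l * u) * g := by group
      _ = s * (u * (g * g) ^ l) * g := by rw [c1.eq]
      _ = (s * u) * ((g * g) ^ l * g) := by group
  -- `x` is an involution
  have hx2 : x⁻¹ = x := inv_eq_of_mul_eq_one_right hj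
  have hxconj : ∀ y, x⁻¹ * y * x⁻¹ = x * y * x := by
    intro y; rw [hx2]
  have hxu' : x * u * x = s * u := by
    rw [hxu, mul_assoc, hj, mul_one]
  have hxs' : x * s * x = s := by
    rw [hxs, mul_assoc, hj, mul_one]
  have hxsu' : x * (s * u) * x = u := by
    calc x * (s * u) * x = (x * s * x) * (x * u * x) := by
          calc x * (s * u) * x = x * s * 1 * u * x := by group
            _ = x * s * (x * x) * u * x := by rw [hj]
            _ = (x * s * x) * (x * u * x) := by group
      _ = s * (s * u) := by rw [hxs', hxu']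
      _ = u := by rw [← mul_assoc, hs, one_mul]
  -- the automorphism of `C`
  have hCnorm : ∀ c ∈ C, x * c * x ∈ C := by
    rintro c ⟨hcG, hc1, hc2⟩
    have hcsu : c * (s * u) = (s * u) * c := by
      rw [← mul_assoc, hc1, mul_assoc, hc2, mul_assoc]
    refine ⟨G.mul_mem (G.mul_mem hxG hcG) hxG, ?_, ?_⟩
    · calc x * c * x * s = x * c * (x * s) := by group
        _ = x * c * (s * x) := by rw [hxs]
        _ = x * (c * s) * x := by group
        _ = x * (s * c) * x := by rw [hc1]
        _ = (x * s) * c * x := by group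
        _ = (s * x) * c * x := by rw [hxs]
        _ = s * (x * c * x) := by group
    · have e1 : x * u = (s * u) * x := hxu
      have e2 : u * x = x * (s * u) := by
        have : x * (s * u) * x = u := hxsu'
        calc u * x = x * (s * u) * x * x := by rw [this]
          _ = x * (s * u) * (x * x) := by group
          _ = x * (s * u) := by rw [hj, mul_one]
      calc x * c * x * u = x * c * (x * u) := by group
        _ = x * c * ((s * u) * x) := by rw [e1]
        _ = x * (c * (s * u)) * x := by group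
        _ = x * ((s * u) * c) * x := by rw [hcsu]
        _ = (x * (s * u)) * c * x := by group
        _ = (u * x) * c * x := by rw [e2]
        _ = u * (x * c * x) := by group
  let τ : C →* C :=
    { toFun := fun c => ⟨x * c * x, hCnorm c c.2⟩
      map_one' := by
        apply Subtype.ext
        simp [hj]
      map_mul' := by
        intro c d
        apply Subtype.ext
        change x * (c * d : Perm α) * x = x * (c : Perm α) * x * (x * (d : Perm α) * x)
        calc x * (c * d : Perm α) * x = x * (c : Perm α) * 1 * (d : Perm α) * x := by group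
          _ = x * (c : Perm α) * (x * x) * (d : Perm α) * x := by rw [hj]
          _ = x * (c : Perm α) * x * (x * (d : Perm α) * x) := by group }
  have hτ : ∀ c : C, ((τ c : C) : Perm α) = x * c * x := fun c => rfl
  have hWC : v4 s u hs hu hc ≤ C := by
    rintro w (rfl | rfl | rfl | rfl)
    · exact C.one_mem
    · exact ⟨hsG, rfl, hc⟩
    · exact ⟨huG, hc.symm, rfl⟩
    · refine ⟨G.mul_mem hsG huG, ?_, ?_⟩
      · calc s * u * s = s * (u * s) := by group
          _ = s * (s * u) := by rw [hc]
      · calc s * u * u = s * (u * u) := by group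
          _ = s := by rw [hu, mul_one]
          _ = u * (u * s) := by rw [← mul_assoc, hu, one_mul]
          _ = u * (s * u) := by rw [hc]
  set W₀ : Subgroup C := (v4 s u hs hu hc).subgroupOf C with hW₀
  have hW₀central : ∀ (w : C), w ∈ W₀ → ∀ c : C, (c : Perm α) * w = w * c := by
    intro w hw c
    have hw' : (w : Perm α) ∈ v4 s u hs hu hc := hw
    have hc1 := c.2.2.1
    have hc2 := c.2.2.2
    rcases hw' with h | h | h | h <;> rw [h]
    · simp
    · exact hc1
    · exact hc2
    · rw [← mul_assoc, hc1, mul_assoc, hc2, mul_assoc]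
  haveI hW₀n : W₀.Normal := by
    constructor
    intro w hw c
    have : c * w * c⁻¹ = w := by
      apply Subtype.ext
      have h1 := hW₀central w hw c
      simp only [Subgroup.coe_mul, Subgroup.coe_inv]
      rw [h1, mul_assoc, mul_inv_cancel, mul_one]
    rw [this]
    exact hw
  have hτ2 : ∀ c, τ (τ c) = c := by
    intro c
    apply Subtype.ext
    change x * (x * (c : Perm α) * x) * x = c
    calc x * (x * (c : Perm α) * x) * x = (x * x) * (c : Perm α) * (x * x) := by group
      _ = c := by rw [hj]; group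
  have hτW : ∀ w ∈ W₀, τ w ∈ W₀ := by
    intro w hw
    have hw' : (w : Perm α) ∈ v4 s u hs hu hc := hw
    change x * (w : Perm α) * x ∈ v4 s u hs hu hc
    rcases hw' with h | h | h | h <;> rw [h]
    · left; rw [mul_one, hj]
    · right; left; exact hxs'
    · right; right; right; exact hxu'
    · right; right; left; exact hxsu'
  -- the index is even
  have hcardW : Nat.card (v4 s u hs hu hc) ≤ 4 := by
    have hsub : ((v4 s u hs hu hc : Subgroup (Perm α)) : Set (Perm α))
        ⊆ (({1, s, u, s * u} : Finset (Perm α)) : Set (Perm α)) := by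
      rintro w (rfl | rfl | rfl | rfl) <;> simp
    have h1 := Set.ncard_le_ncard hsub (Finset.finite_toSet _)
    rw [Set.ncard_coe_finset] at h1
    have h2 : Nat.card (v4 s u hs hu hc) =
        ((v4 s u hs hu hc : Subgroup (Perm α)) : Set (Perm α)).ncard := rfl
    rw [h2]
    exact h1.trans Finset.card_le_four
  have hW₀card : Nat.card W₀ = Nat.card (v4 s u hs hu hc) :=
    Nat.card_congr (Subgroup.subgroupOfEquivOfLe hWC).toEquiv
  have hidx : 2 ∣ W₀.index := by
    by_contra hodd
    have h1 := W₀.card_mul_index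
    have h2 : Nat.Coprime 8 W₀.index := by
      have : (8 : ℕ) = 2 ^ 3 := by norm_num
      rw [this]
      exact Nat.Coprime.pow_left 3 ((Nat.Prime.coprime_iff_not_dvd Nat.prime_two).2 hodd)
    rw [← h1] at h8C
    have h3 : 8 ∣ Nat.card W₀ := h2.dvd_of_dvd_mul_right h8C
    have h4 : 0 < Nat.card W₀ := Nat.card_pos
    have := Nat.le_of_dvd h4 h3
    omega
  obtain ⟨c, hcW, hc2W, hcτ⟩ := exists_fixed_inv_mod W₀ τ hτ2 hτW hidx
  -- from now on `g₁ = c`
  set g₁ : Perm α := (c : Perm α) with hg₁
  have hg₁C : g₁ ∈ C := c.2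
  have hg₁W : g₁ ∉ v4 s u hs hu hc := hcW
  have hg₁2 : g₁ * g₁ ∈ v4 s u hs hu hc := hc2W
  have hw : g₁⁻¹ * (x * g₁ * x) ∈ v4 s u hs hu hc := hcτ
  set w := g₁⁻¹ * (x * g₁ * x) with hwdef
  have hxg : x * g₁ * x = g₁ * w := by
    rw [hwdef]; group
  have hgw : g₁ * w = w * g₁ := by
    have := hW₀central ⟨w, hWC hw⟩ hw c
    exact this
  have hww : w * w = 1 := v4_sq hw
  -- `x` centralizes `w`
  have hxw : x * w * x = w := by
    have h1 : x * (g₁ * w) * x = g₁ := by
      rw [← hxg]
      calc x * (x * g₁ * x) * x = (x * x) * g₁ * (x * x) := by group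
        _ = g₁ := by rw [hj]; group
    have h2 : x * (g₁ * w) * x = (x * g₁ * x) * (x * w * x) := by
      calc x * (g₁ * w) * x = x * g₁ * 1 * w * x := by group
        _ = x * g₁ * (x * x) * w * x := by rw [hj]
        _ = (x * g₁ * x) * (x * w * x) := by group
    rw [h2, hxg] at h1
    have h3 : w * (x * w * x) = 1 := by
      have := mul_left_cancel (a := g₁) (b := w * (x * w * x)) (c := 1)
        (by rw [mul_one, ← mul_assoc]; exact h1)
      exact this
    calc x * w * x = (w * w) * (x * w * x) := by rw [hww, one_mul]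
      _ = w * (w * (x * w * x)) := by group
      _ = w := by rw [h3, mul_one]
  have hs1' : ∀ y : Perm α, s * y = y → False := by
    intro y hy
    apply hs1
    exact mul_eq_right.1 hy
  have hgcomm_s : ∀ r, g₁ (s r) = s (g₁ r) := comm_s g₁ hg₁C
  have hgcomm_u : ∀ r, g₁ (u r) = u (g₁ r) := comm_u g₁ hg₁C
  have hp : s (g₁ a) ≠ g₁ a := by
    rw [← hgcomm_s]
    intro h
    exact ha (g₁.injective h)
  have hsua' : s (u a) ≠ u a := by
    intro h
    apply ha
    apply u.injective
    rw [← su, h]
  have hx1 : x ≠ 1 := by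
    intro h
    rw [h] at xua
    exact hsua' xua.symm
  have finish : ∀ v ∈ v4 s u hs hu hc, g₁ a = v a → False := by
    intro v hv hva
    have hvC : v ∈ C := hWC hv
    have hκ : v * g₁ ∈ C := C.mul_mem hvC hg₁C
    have hvv : v * v = 1 := v4_sq hv
    have hκa : (v * g₁) a = a := by
      simp only [Perm.mul_apply]
      rw [hva]
      exact apply_apply_of_sq hvv a
    have hκK := fixall _ hκ.1 hκ.2.1 hκ.2.2 hκa
    have hvg : g₁ * v = v * g₁ := hW₀central ⟨v, hvC⟩ hv c
    have hκ2 : (v * g₁) * (v * g₁) = g₁ * g₁ := by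
      calc (v * g₁) * (v * g₁) = v * (g₁ * v) * g₁ := by group
        _ = v * (v * g₁) * g₁ := by rw [hvg]
        _ = (v * v) * (g₁ * g₁) := by group
        _ = g₁ * g₁ := by rw [hvv, one_mul]
    have hκ4 : (v * g₁) ^ 2 ^ 2 = 1 := by
      have e : (v * g₁) ^ 2 ^ 2 = ((v * g₁) * (v * g₁)) * ((v * g₁) * (v * g₁)) := by
        norm_num [pow_succ]
        group
      rw [e, hκ2]
      exact v4_sq hg₁2
    have hκ1 : v * g₁ = 1 := S.two_elt inja hκK.1 hκK.2 hκ4
    apply hg₁W
    have : g₁ = v := by
      have h0 : g₁ = v⁻¹ := eq_inv_of_mul_eq_one_right hκ1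
      rw [h0]
      exact inv_eq_of_mul_eq_one_right hvv
    rw [this]
    exact hv
  rcases hw with h | h | h | h
  · -- `w = 1`
    rw [h, mul_one] at hxg
    have h1 : x (g₁ a) = g₁ a := by
      have := congrArg (fun f : Perm α => f a) hxg
      simp only [Perm.mul_apply] at this
      rwa [xa] at this
    rcases S.fix_of_comm hxG hj hx1 hxs hs ha xa xsa h1 hp with h2 | h2
    · exact finish 1 (Or.inl rfl) h2
    · exact finish s (Or.inr (Or.inl rfl)) h2
  · -- `w = s`
    rw [h] at hxg
    have h1 : x (g₁ a) = s (g₁ a) := by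
      have := congrArg (fun f : Perm α => f a) hxg
      simp only [Perm.mul_apply] at this
      rw [xa] at this
      rw [this, hgcomm_s]
    have hy2 : (s * x) * (s * x) = 1 := by
      calc (s * x) * (s * x) = s * (x * s) * x := by group
        _ = s * (s * x) * x := by rw [hxs]
        _ = (s * s) * (x * x) := by group
        _ = 1 := by rw [hs, hj, one_mul]
    have hy1 : s * x ≠ 1 := by
      intro h3
      have := congrArg (fun f : Perm α => f a) h3
      simp only [Perm.mul_apply, xa, Perm.coe_one, id_eq] at this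
      exact ha this
    have hyc : (s * x) * s = s * (s * x) := by rw [mul_assoc, hxs]
    rcases S.fix_of_comm (a := u a) (p := g₁ a) (G.mul_mem hsG hxG) hy2 hy1 hyc hs hsua'
        (by simp only [Perm.mul_apply]; rw [xua, ss])
        (by simp only [Perm.mul_apply]; rw [xsua])
        (by simp only [Perm.mul_apply]; rw [h1, ss]) hp with h2 | h2
    · exact finish u (Or.inr (Or.inr (Or.inl rfl))) h2
    · exact finish (s * u) (Or.inr (Or.inr (Or.inr rfl))) (by simpa [Perm.mul_apply] using h2)
  · -- `w = u`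
    rw [h, hxu'] at hxw
    exact hs1' _ hxw
  · -- `w = s * u`
    rw [h, hxsu'] at hxw
    exact hs1' _ hxw.symm

end Cfsg.Agent.Lib.FourTrans
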