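import Mathlib
import Cfsg.Agent.Lib.FourTrans.NoV4

/-!
# Four-fold transitive groups: two-point stabilizers and uniqueness of involutions
-/

set_option autoImplicit false

namespace Cfsg.Agent.Lib.FourTrans

open Equiv

universe u

/-- A non-trivial normal subgroup of odd order contains a non-trivial abelian normal subgroup. -/
theorem exists_abelian_normal {Γ : Type*} [Group Γ] [Finite Γ]
    (ft : ∀ H : Subgroup Γ, Odd (Nat.card H) → Group.IsSolvable H) :
    ∀ (n : ℕ) (N : Subgroup Γ), Nat.card N = n → N.Normal → Odd (Nat.card N) → N ≠ ⊥ →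
      ∃ A : Subgroup Γ, A.Normal ∧ A ≠ ⊥ ∧ A ≤ N ∧ ∀ a ∈ A, ∀ b ∈ A, a * b = b * a := by
  intro n
  induction n using Nat.strong_induction_on with
  | _ n ih =>
    intro N hn hNn hodd hne
    haveI := hNn
    by_cases hB : ⁅N, N⁆ = ⊥
    · refine ⟨N, hNn, hne, le_rfl, ?_⟩
      intro a ha b hb
      rw [Subgroup.commutator_eq_bot_iff_le_centralizer] at hB
      exact (Subgroup.mem_centralizer_iff.1 (hB ha) b hb).symm
    · have hBn : (⁅N, N⁆).Normal := Subgroup.commutator_normal N N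
      have hle : ⁅N, N⁆ ≤ N := Subgroup.commutator_le_left N N
      have hodd' : Odd (Nat.card (⁅N, N⁆ : Subgroup Γ)) :=
        Odd.of_dvd_nat hodd (Subgroup.card_dvd_of_le hle)
      haveI := ft N hodd
      haveI hnt : Nontrivial N := (Subgroup.nontrivial_iff_ne_bot N).2 hne
      have hlt := Group.IsSolvable.commutator_lt_top_of_nontrivial N
      have hne' : ⁅N, N⁆ ≠ N := by
        intro h
        have : commutator N = ⊤ := by
          apply Subgroup.map_injective N.subtype_injective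
          rw [Subgroup.map_subtype_commutator, h, ← MonoidHom.range_eq_map,
            Subgroup.range_subtype]
        exact hlt.ne this
      have hcard : Nat.card (⁅N, N⁆ : Subgroup Γ) < n := by
        by_contra hcon
        push_neg at hcon
        rw [← hn] at hcon
        exact hne' (Subgroup.eq_of_le_of_card_ge hle hcon)
      obtain ⟨A, h1, h2, h3, h4⟩ := ih _ hcard _ rfl hBn hodd' hB
      exact ⟨A, h1, h2, h3.trans hle, h4⟩

variable {α : Type u} [Fintype α] [DecidableEq α]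

theorem ne_of_fix {g : Perm α} {c e : α} (hc : g c = c) (he : e ≠ c) : g e ≠ c :=
  fun h => he (g.injective (h.trans hc.symm))

/-- Pointwise stabilizer in `G` of two points. -/
def Y2 (G : Subgroup (Perm α)) (c d : α) : Subgroup (Perm α) where
  carrier := {g | g ∈ G ∧ g c = c ∧ g d = d}
  mul_mem' := by
    rintro g h ⟨hg, hg1, hg2⟩ ⟨hh, hh1, hh2⟩
    exact ⟨G.mul_mem hg hh, by simp [Perm.mul_apply, hh1, hg1], by simp [Perm.mul_apply, hh2, hg2]⟩
  one_mem' := ⟨G.one_mem, rfl, rfl⟩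
  inv_mem' := by
    rintro g ⟨hg, hg1, hg2⟩
    refine ⟨G.inv_mem hg, ?_, ?_⟩
    · rw [Perm.inv_eq_iff_eq]; exact hg1.symm
    · rw [Perm.inv_eq_iff_eq]; exact hg2.symm

theorem mem_Y2 {G : Subgroup (Perm α)} {c d : α} {g : Perm α} :
    g ∈ Y2 G c d ↔ g ∈ G ∧ g c = c ∧ g d = d := Iff.rfl

/-- Two-transitivity of `Y2` on the remaining points. -/
theorem Setup.y2_trans {G : Subgroup (Perm α)} (S : Setup G) {c d e f e' f' : α} (hcd : c ≠ d)
    (h1 : e ≠ c) (h2 : e ≠ d) (h3 : f ≠ c) (h4 : f ≠ d) (h5 : e ≠ f)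
    (h1' : e' ≠ c) (h2' : e' ≠ d) (h3' : f' ≠ c) (h4' : f' ≠ d) (h5' : e' ≠ f') :
    ∃ g ∈ Y2 G c d, g e = e' ∧ g f = f' := by
  obtain ⟨g, hg, hga⟩ := S.trans ![c, d, e, f] ![c, d, e', f']
    (inj4 hcd h1.symm h3.symm h2.symm h4.symm h5) (inj4 hcd h1'.symm h3'.symm h2'.symm h4'.symm h5')
  have g0 := hga 0
  have g1 := hga 1
  have g2 := hga 2
  have g3 := hga 3
  simp only [Matrix.cons_val] at g0 g1 g2 g3
  exact ⟨g, ⟨hg, g0, g1⟩, g2, g3⟩

/-- A non-trivial normal subgroup of `Y2` is transitive on the remaining points. -/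
theorem Setup.normal_trans {G : Subgroup (Perm α)} (S : Setup G) {c d : α} (hcd : c ≠ d)
    (B : Subgroup (Y2 G c d)) (hB : B.Normal) (hne : B ≠ ⊥) {e f : α}
    (h1 : e ≠ c) (h2 : e ≠ d) (h3 : f ≠ c) (h4 : f ≠ d) (h5 : e ≠ f) :
    ∃ b ∈ B, ((b : Y2 G c d) : Perm α) e = f := by
  obtain ⟨n, hn, hn1⟩ := (Subgroup.ne_bot_iff_exists_ne_one ..).1 hne |> fun ⟨x, hx⟩ =>
    (⟨(x : Y2 G c d), x.2, by simpa using hx⟩ : ∃ n : Y2 G c d, n ∈ B ∧ n ≠ 1)
  have hn2 : (n : Perm α) ≠ 1 := fun h => hn1 (Subtype.ext h)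
  obtain ⟨e₁, he₁⟩ : ∃ e₁, (n : Perm α) e₁ ≠ e₁ := by
    by_contra hcon
    push_neg at hcon
    exact hn2 (Equiv.ext hcon)
  have nc : (n : Perm α) c = c := n.2.2.1
  have nd : (n : Perm α) d = d := n.2.2.2
  have e1c : e₁ ≠ c := by rintro rfl; exact he₁ nc
  have e1d : e₁ ≠ d := by rintro rfl; exact he₁ nd
  have e2c : (n : Perm α) e₁ ≠ c := ne_of_fix nc e1c
  have e2d : (n : Perm α) e₁ ≠ d := ne_of_fix nd e1d
  obtain ⟨g, hg, hg1, hg2⟩ := S.y2_trans hcd e1c e1d e2c e2d he₁.symm h1 h2 h3 h4 h5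
  let g' : Y2 G c d := ⟨g, hg⟩
  refine ⟨g' * n * g'⁻¹, hB.conj_mem n hn g', ?_⟩
  have : ((g' * n * g'⁻¹ : Y2 G c d) : Perm α) = g * (n : Perm α) * g⁻¹ := rfl
  rw [this]
  simp only [Perm.mul_apply]
  have hinv : g⁻¹ e = e₁ := by rw [Perm.inv_eq_iff_eq]; exact hg1.symm
  rw [hinv, hg2]

/-- From an abelian normal subgroup of `Y2`: uniqueness of involutions. -/
theorem Setup.unique_of_abelian {G : Subgroup (Perm α)} (S : Setup G) {c d : α} (hcd : c ≠ d)
    (A : Subgroup (Y2 G c d)) (hA : A.Normal) (hne : A ≠ ⊥) (hcomm : ∀ a ∈ A, ∀ b ∈ A, a * b = b * a)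
    (hthird : ∀ t ∈ G, t * t = 1 → t ≠ 1 → t c = c → t d = d → ∃ e, e ≠ c ∧ e ≠ d ∧ t e = e)
    {t t' : Perm α} (htG : t ∈ G) (ht'G : t' ∈ G) (ht2 : t * t = 1) (ht'2 : t' * t' = 1)
    (ht1 : t ≠ 1) (ht'1 : t' ≠ 1) (htc : t c = c) (htd : t d = d) (ht'c : t' c = c)
    (ht'd : t' d = d) {p : α} (hpc : p ≠ c) (hpd : p ≠ d) (hp : t p = t' p) : t = t' := by
  -- basic facts on `A`
  have orbit : ∀ {e q : α}, e ≠ c → e ≠ d → q ≠ c → q ≠ d → e ≠ q →
      ∃ a ∈ A, ((a : Y2 G c d) : Perm α) e = q := fun h1 h2 h3 h4 h5 =>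
    S.normal_trans hcd A hA hne h1 h2 h3 h4 h5
  have regular : ∀ a ∈ A, ∀ e, e ≠ c → e ≠ d → ((a : Y2 G c d) : Perm α) e = e → a = 1 := by
    intro a ha e he1 he2 hae
    apply Subtype.ext
    apply Equiv.ext
    intro q
    change (a : Perm α) q = q
    by_cases hq1 : q = c
    · rw [hq1]; exact a.2.2.1
    by_cases hq2 : q = d
    · rw [hq2]; exact a.2.2.2
    by_cases hq3 : e = q
    · rw [← hq3]; exact hae
    obtain ⟨b, hb, hbe⟩ := orbit he1 he2 hq1 hq2 hq3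
    have h := hcomm a ha b hb
    have h' := congrArg (fun x : Y2 G c d => (x : Perm α) e) h
    simp only [Subgroup.coe_mul, Perm.mul_apply] at h'
    rw [hae, hbe] at h'
    exact h'
  -- each involution of `Y2` inverts `A`
  have invert : ∀ τ : Y2 G c d, (τ : Perm α) * τ = 1 → (τ : Perm α) ≠ 1 →
      ∀ a ∈ A, τ * a * τ⁻¹ = a⁻¹ := by
    intro τ hτ hτ1 a ha
    have hττ : τ * τ = 1 := Subtype.ext hτ
    have hτinv : τ⁻¹ = τ := inv_eq_of_mul_eq_one_right hττ
    obtain ⟨e, he1, he2, he3⟩ := hthird τ τ.2.1 hτ hτ1 τ.2.2.1 τ.2.2.2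
    set a' := τ * a * τ⁻¹ with ha'
    have ha'A : a' ∈ A := hA.conj_mem a ha τ
    set w := a * a' with hw
    have hwA : w ∈ A := A.mul_mem ha ha'A
    have hτa' : τ * a' * τ⁻¹ = a := by
      rw [ha', hτinv]
      calc τ * (τ * a * τ) * τ = (τ * τ) * a * (τ * τ) := by group
        _ = a := by rw [hττ]; group
    have hτw : τ * w = w * τ := by
      have : τ * w * τ⁻¹ = w := by
        rw [hw]
        calc τ * (a * a') * τ⁻¹ = (τ * a * τ⁻¹) * (τ * a' * τ⁻¹) := by group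
          _ = a' * a := by rw [hτa']
          _ = a * a' := hcomm a' ha'A a ha
      exact mul_inv_eq_iff_eq_mul.1 this
    have hfw : (τ : Perm α) ((w : Perm α) e) = (w : Perm α) e := by
      have h := congrArg (fun x : Y2 G c d => (x : Perm α) e) hτw
      simp only [Subgroup.coe_mul, Perm.mul_apply] at h
      rw [h, he3]
    have hwe : (w : Perm α) e = e := by
      by_contra hcon
      have wc : (w : Perm α) c = c := w.2.2.1
      have wd : (w : Perm α) d = d := w.2.2.2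
      have h1 : (w : Perm α) e ≠ c := ne_of_fix wc he1
      have h2 : (w : Perm α) e ≠ d := ne_of_fix wd he2
      exact S.no_four τ.2.1 hτ hτ1 (p := c) (q := d) (r := e) (w := (w : Perm α) e) hcd he1.symm
        h1.symm he2.symm h2.symm (Ne.symm hcon) τ.2.2.1 τ.2.2.2 he3 hfw
    have hw1 := regular w hwA e he1 he2 hwe
    exact eq_inv_of_mul_eq_one_right hw1
  let τ : Y2 G c d := ⟨t, htG, htc, htd⟩
  let τ' : Y2 G c d := ⟨t', ht'G, ht'c, ht'd⟩
  have hcentral : ∀ a ∈ A, (τ * τ') * a = a * (τ * τ') := by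
    intro a ha
    have hτ'inv : τ' * a * τ'⁻¹ = a⁻¹ := invert τ' ht'2 ht'1 a ha
    have hτinv : τ * a⁻¹ * τ⁻¹ = a := by
      have := invert τ ht2 ht1 a⁻¹ (A.inv_mem ha)
      rwa [inv_inv] at this
    have : (τ * τ') * a * (τ * τ')⁻¹ = a := by
      calc (τ * τ') * a * (τ * τ')⁻¹ = τ * (τ' * a * τ'⁻¹) * τ⁻¹ := by group
        _ = τ * a⁻¹ * τ⁻¹ := by rw [hτ'inv]
        _ = a := hτinv
    exact mul_inv_eq_iff_eq_mul.1 this
  -- `τ * τ'` lies in `A`
  obtain ⟨e, he1, he2, he3⟩ := hthird t htG ht2 ht1 htc htd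
  set κ := τ * τ' with hκ
  have κc : (κ : Perm α) c = c := κ.2.2.1
  have κd : (κ : Perm α) d = d := κ.2.2.2
  have κe1 : (κ : Perm α) e ≠ c := ne_of_fix κc he1
  have κe2 : (κ : Perm α) e ≠ d := ne_of_fix κd he2
  obtain ⟨b, hb, hbe⟩ : ∃ b ∈ A, (b : Perm α) e = (κ : Perm α) e := by
    by_cases h : e = (κ : Perm α) e
    · exact ⟨1, A.one_mem, h⟩
    · exact orbit he1 he2 κe1 κe2 h
  have hκA : κ ∈ A := by
    have h0 : b⁻¹ * κ = 1 := by
      apply Subtype.ext
      apply Equiv.ext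
      intro q
      change ((b⁻¹ * κ : Y2 G c d) : Perm α) q = q
      have hfixe : ((b⁻¹ * κ : Y2 G c d) : Perm α) e = e := by
        have h1 : ((b⁻¹ * κ : Y2 G c d) : Perm α) = (b : Perm α)⁻¹ * (κ : Perm α) := rfl
        rw [h1, Perm.mul_apply, ← hbe, ← Perm.mul_apply, inv_mul_cancel]
        rfl
      by_cases hq1 : q = c
      · rw [hq1]; exact (b⁻¹ * κ).2.2.1
      by_cases hq2 : q = d
      · rw [hq2]; exact (b⁻¹ * κ).2.2.2
      by_cases hq3 : e = q
      · rw [← hq3]; exact hfixe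
      obtain ⟨a, ha, hae⟩ := orbit he1 he2 hq1 hq2 hq3
      have hcomm2 : (b⁻¹ * κ) * a = a * (b⁻¹ * κ) := by
        calc (b⁻¹ * κ) * a = b⁻¹ * (κ * a) := by group
          _ = b⁻¹ * (a * κ) := by rw [hcentral a ha]
          _ = (b⁻¹ * a) * κ := by group
          _ = (a * b⁻¹) * κ := by rw [hcomm _ (A.inv_mem hb) a ha]
          _ = a * (b⁻¹ * κ) := by group
      have h' := congrArg (fun x : Y2 G c d => (x : Perm α) e) hcomm2
      simp only [Subgroup.coe_mul, Perm.mul_apply] at h'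
      have hfixe' : (b⁻¹ : Y2 G c d).1 ((κ : Perm α) e) = e := hfixe
      rw [hae, hfixe', hae] at h'
      exact h'
    have : κ = b := by
      have := inv_mul_eq_one.1 h0
      exact this.symm
    rw [this]
    exact hb
  have hκp : (κ : Perm α) p = p := by
    change t (t' p) = p
    rw [← hp]
    exact apply_apply_of_sq ht2 p
  have hκ1 := regular κ hκA p hpc hpd hκp
  have hκ2 : t * t' = 1 := congrArg Subtype.val hκ1
  have : t = t'⁻¹ := eq_inv_of_mul_eq_one_left hκ2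
  rw [this]
  exact inv_eq_of_mul_eq_one_right ht'2

end Cfsg.Agent.Lib.FourTrans
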