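import Mathlib
import Cfsg.Agent.Lib.FourTrans.Unique

/-!
# Four-fold transitive groups: the Z*-step
-/

set_option autoImplicit false

namespace Cfsg.Agent.Lib.FourTrans

open Equiv

universe u

variable {α : Type u} [Fintype α] [DecidableEq α]

theorem exists_not_mem (F : Finset α) (h : F.card < Fintype.card α) : ∃ p, p ∉ F := by
  by_contra hcon
  push_neg at hcon
  have : F = Finset.univ := Finset.eq_univ_of_forall hcon
  rw [this, Finset.card_univ] at h
  exact lt_irrefl _ h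

/-- Existence of a non-trivial normal subgroup of odd order in the two-point stabilizer. -/
theorem Setup.exists_normal_odd {G : Subgroup (Perm α)} (S : Setup G) {c d : α} (hcd : c ≠ d)
    (zs : ∀ (P : Sylow 2 (Y2 G c d)) (v : Y2 G c d), orderOf v = 2 → v ∈ P →
      (∀ g : Y2 G c d, g * v * g⁻¹ ∈ P → g * v * g⁻¹ = v) →
        ∃ N : Subgroup (Y2 G c d), N.Normal ∧ Odd (Nat.card N) ∧
          ∀ g : Y2 G c d, (v * g * v⁻¹ * g⁻¹) ∈ N)
    (huni : ∀ t ∈ G, t * t = 1 → t ≠ 1 → ∀ t' ∈ G, t' * t' = 1 → t' ≠ 1 →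
      (Fixd t').card = (Fixd t).card)
    (h8 : ∀ t ∈ G, t * t = 1 → t ≠ 1 → 8 ∣ (Moved t).card)
    (hn : 6 ≤ Fintype.card α) :
    ∃ N : Subgroup (Y2 G c d), N.Normal ∧ Odd (Nat.card N) ∧ N ≠ ⊥ := by
  classical
  haveI : Fact (Nat.Prime 2) := ⟨Nat.prime_two⟩
  -- two more points
  obtain ⟨e, he⟩ := exists_not_mem ({c, d} : Finset α)
    (lt_of_le_of_lt Finset.card_le_two (by omega))
  have he1 : e ≠ c := by
    intro h; apply he; simp [h]
  have he2 : e ≠ d := by
    intro h; apply he; simp [h]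
  obtain ⟨f, hf⟩ := exists_not_mem ({c, d, e} : Finset α)
    (lt_of_le_of_lt Finset.card_le_three (by omega))
  have hf1 : f ≠ c := by
    intro h; apply hf; simp [h]
  have hf2 : f ≠ d := by
    intro h; apply hf; simp [h]
  have hf3 : f ≠ e := by
    intro h; apply hf; simp [h]
  obtain ⟨x, hxG, hx, xc, xd, xe, xf⟩ := S.exists_inv_swap hcd he1.symm hf1.symm he2.symm hf2.symm
    hf3.symm
  have hx1 : x ≠ 1 := by
    rintro rfl
    exact hf3 xe.symm
  let x' : Y2 G c d := ⟨x, hxG, xc, xd⟩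
  have hx'2 : orderOf x' = 2 := by
    apply orderOf_eq_prime
    · apply Subtype.ext
      change x ^ 2 = 1
      rwa [pow_two]
    · intro h
      exact hx1 (congrArg Subtype.val h)
  have h2card : 2 ∣ Nat.card (Y2 G c d) := by
    rw [← hx'2]; exact orderOf_dvd_natCard x'
  obtain ⟨P⟩ : Nonempty (Sylow 2 (Y2 G c d)) := inferInstance
  have hPne : (P : Subgroup (Y2 G c d)) ≠ ⊥ := P.ne_bot_of_dvd_card h2card
  haveI hPnt : Nontrivial (P : Subgroup (Y2 G c d)) :=
    (Subgroup.nontrivial_iff_ne_bot _).2 hPne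
  have hPp : IsPGroup 2 (P : Subgroup (Y2 G c d)) := P.isPGroup'
  haveI hZnt := hPp.center_nontrivial
  have hZp : IsPGroup 2 (Subgroup.center (P : Subgroup (Y2 G c d))) :=
    hPp.to_subgroup _
  obtain ⟨k, hk⟩ := IsPGroup.iff_card.1 hZp
  have hZ2 : 2 ∣ Nat.card (Subgroup.center (P : Subgroup (Y2 G c d))) := by
    rw [hk]
    apply dvd_pow_self
    rintro rfl
    rw [pow_zero] at hk
    have := Finite.one_lt_card (α := Subgroup.center (P : Subgroup (Y2 G c d)))
    omega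
  obtain ⟨z, hz⟩ := exists_prime_orderOf_dvd_card' 2 hZ2
  set z₀ : Y2 G c d := ((z : (P : Subgroup (Y2 G c d))) : Y2 G c d) with hz₀
  have hz₀ord : orderOf z₀ = 2 := by
    rw [hz₀, Subgroup.orderOf_coe, Subgroup.orderOf_coe, hz]
  have hz₀P : z₀ ∈ (P : Subgroup (Y2 G c d)) := (z : (P : Subgroup (Y2 G c d))).2
  have inv_of_ord : ∀ v : Y2 G c d, orderOf v = 2 →
      (v : Perm α) * v = 1 ∧ (v : Perm α) ≠ 1 := by
    intro v hv
    constructor
    · have : v ^ 2 = 1 := by rw [← hv]; exact pow_orderOf_eq_one v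
      have h := congrArg Subtype.val this
      simpa [pow_two] using h
    · intro h
      have : v = 1 := Subtype.ext h
      rw [this, orderOf_one] at hv
      omega
  obtain ⟨hz1, hz2⟩ := inv_of_ord z₀ hz₀ord
  -- uniqueness of the involution in `P`
  have huniq : ∀ v : Y2 G c d, v ∈ (P : Subgroup (Y2 G c d)) → orderOf v = 2 → v = z₀ := by
    intro v hvP hv
    by_contra hne
    obtain ⟨hv1, hv2⟩ := inv_of_ord v hv
    have hcomm : (z₀ : Perm α) * v = (v : Perm α) * z₀ := by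
      have h1 := Subgroup.mem_center_iff.1 z.2 ⟨v, hvP⟩
      have h2 := congrArg (fun y : (P : Subgroup (Y2 G c d)) => ((y : Y2 G c d) : Perm α)) h1
      exact h2.symm
    have hfix : ∀ q, (z₀ : Perm α) q = q → (v : Perm α) q = q := by
      intro q hq
      by_contra hvq
      have vc : (v : Perm α) c = c := v.2.2.1
      have vd : (v : Perm α) d = d := v.2.2.2
      have hqc : q ≠ c := by
        rintro rfl; exact hvq vc
      have hqd : q ≠ d := by
        rintro rfl; exact hvq vd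
      have h1 : (v : Perm α) q ≠ c := ne_of_fix vc hqc
      have h2 : (v : Perm α) q ≠ d := ne_of_fix vd hqd
      have hzv : (z₀ : Perm α) ((v : Perm α) q) = (v : Perm α) q := by
        rw [apply_comm hcomm, hq]
      exact S.no_four z₀.2.1 hz1 hz2 (p := c) (q := d) (r := q) (w := (v : Perm α) q) hcd hqc.symm
        h1.symm hqd.symm h2.symm (Ne.symm hvq) z₀.2.2.1 z₀.2.2.2 hq hzv
    exact S.no_v4 z₀.2.1 v.2.1 hz1 hv1 hz2 hv2 (fun h => hne (Subtype.ext h).symm) hcomm hfix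
      (fun t ht ht2 ht1 => huni _ z₀.2.1 hz1 hz2 t ht ht2 ht1) (h8 _ z₀.2.1 hz1 hz2)
  obtain ⟨N, hN, hNodd, hNcomm⟩ := zs P z₀ hz₀ord hz₀P (by
    intro g hg
    exact huniq _ hg (by rw [← MulAut.conj_apply, MulEquiv.orderOf_eq]; exact hz₀ord))
  refine ⟨N, hN, hNodd, ?_⟩
  rintro rfl
  -- `z₀` central: contradiction
  have hcentral : ∀ g : Y2 G c d, z₀ * g = g * z₀ := by
    intro g
    have h := hNcomm g
    rw [Subgroup.mem_bot] at h
    have h' : z₀ * g * z₀⁻¹ = g := mul_inv_eq_one.1 h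
    exact mul_inv_eq_iff_eq_mul.1 h'
  obtain ⟨q, hq⟩ : ∃ q, (z₀ : Perm α) q ≠ q := by
    by_contra hcon
    push_neg at hcon
    exact hz2 (Equiv.ext hcon)
  have zc : (z₀ : Perm α) c = c := z₀.2.2.1
  have zd : (z₀ : Perm α) d = d := z₀.2.2.2
  have hqc : q ≠ c := by
    rintro rfl; exact hq zc
  have hqd : q ≠ d := by
    rintro rfl; exact hq zd
  have h1 : (z₀ : Perm α) q ≠ c := ne_of_fix zc hqc
  have h2 : (z₀ : Perm α) q ≠ d := ne_of_fix zd hqd
  obtain ⟨f', hf'⟩ := exists_not_mem ({c, d, q, (z₀ : Perm α) q} : Finset α)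
    (lt_of_le_of_lt Finset.card_le_four (by omega))
  have f1 : f' ≠ c := by
    intro h; apply hf'; simp [h]
  have f2 : f' ≠ d := by
    intro h; apply hf'; simp [h]
  have f3 : f' ≠ q := by
    intro h; apply hf'; simp [h]
  have f4 : f' ≠ (z₀ : Perm α) q := by
    intro h; apply hf'; simp [h]
  obtain ⟨g, hg, hg1, hg2⟩ := S.y2_trans hcd hqc hqd h1 h2 hq.symm hqc hqd f1 f2 f3.symm
  have h3 := hcentral ⟨g, hg⟩
  have h4 := congrArg (fun y : Y2 G c d => (y : Perm α) q) h3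
  simp only [Subgroup.coe_mul, Perm.mul_apply] at h4
  rw [hg1, hg2] at h4
  exact f4 h4.symm

/-- The size of the remaining set divides the order of a transitive normal subgroup. -/
theorem Setup.odd_card_of_normal {G : Subgroup (Perm α)} (S : Setup G) {c d e : α} (hcd : c ≠ d)
    (he1 : e ≠ c) (he2 : e ≠ d) (N : Subgroup (Y2 G c d)) (hN : N.Normal) (hodd : Odd (Nat.card N))
    (hne : N ≠ ⊥) : Odd (Fintype.card α - 2) := by
  classical
  set C : Subgroup (Perm α) := N.map (Y2 G c d).subtype with hC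
  have hcard : Nat.card C = Nat.card N :=
    Nat.card_congr (N.equivMapOfInjective _ (Y2 G c d).subtype_injective).symm.toEquiv
  set Δ : Finset α := (({c, d} : Finset α))ᶜ with hΔ
  have hΔcard : Δ.card = Fintype.card α - 2 := by
    rw [hΔ, Finset.card_compl, Finset.card_pair hcd]
  have hmemΔ : ∀ q, q ∈ Δ ↔ q ≠ c ∧ q ≠ d := by
    intro q
    simp [hΔ]
  have orb := card_orbit_stab C e Δ (by
    intro q
    rw [hmemΔ]
    constructor
    · rintro ⟨h1, h2⟩
      by_cases h3 : e = q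
      · exact ⟨1, C.one_mem, h3⟩
      · obtain ⟨b, hb, hbe⟩ := S.normal_trans hcd N hN hne he1 he2 h1 h2 h3
        exact ⟨(b : Perm α), ⟨b, hb, rfl⟩, hbe⟩
    · rintro ⟨g, ⟨b, -, rfl⟩, rfl⟩
      exact ⟨ne_of_fix b.2.2.1 he1, ne_of_fix b.2.2.2 he2⟩)
  rw [hcard] at orb
  rw [← hΔcard]
  exact Odd.of_dvd_nat hodd (Dvd.intro _ orb.symm)

end Cfsg.Agent.Lib.FourTrans
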