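import Mathlib
import Cfsg.Agent.Lib.FourTrans.ZStep

/-!
# Four-fold transitive groups: the bound on the degree
-/

set_option autoImplicit false

namespace Cfsg.Agent.Lib.FourTrans

open Equiv

universe u

variable {α : Type u} [Fintype α] [DecidableEq α]

/-- The uniqueness property of involutions. -/
def UProp (G : Subgroup (Perm α)) : Prop :=
  ∀ c d : α, c ≠ d → ∀ t ∈ G, ∀ t' ∈ G, t * t = 1 → t' * t' = 1 → t ≠ 1 → t' ≠ 1 → t c = c →
    t d = d → t' c = c → t' d = d → ∀ p, p ≠ c → p ≠ d → t p = t' p → t = t'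

/-- Four distinct elements in a finset with at least four elements. -/
theorem exists_four (F : Finset α) (h : 4 ≤ F.card) :
    ∃ p ∈ F, ∃ q ∈ F, ∃ r ∈ F, ∃ w ∈ F, p ≠ q ∧ p ≠ r ∧ p ≠ w ∧ q ≠ r ∧ q ≠ w ∧ r ≠ w := by
  obtain ⟨p, hp⟩ : F.Nonempty := Finset.card_pos.1 (by omega)
  have h2 : 2 < (F.erase p).card := by
    rw [Finset.card_erase_of_mem hp]; omega
  obtain ⟨q, hq, r, hr, w, hw, h1, h3, h4⟩ := Finset.two_lt_card.1 h2
  rw [Finset.mem_erase] at hq hr hw
  exact ⟨p, hp, q, hq.2, r, hr.2, w, hw.2, hq.1.symm, hr.1.symm, hw.1.symm, h1, h3, h4⟩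

/-- An involution fixes at most three points. -/
theorem Setup.fixd_le {G : Subgroup (Perm α)} (S : Setup G) {t : Perm α} (ht : t ∈ G)
    (ht2 : t * t = 1) (ht1 : t ≠ 1) : (Fixd t).card ≤ 3 := by
  by_contra hcon
  push_neg at hcon
  obtain ⟨p, hp, q, hq, r, hr, w, hw, h1, h2, h3, h4, h5, h6⟩ := exists_four (Fixd t) hcon
  rw [mem_Fixd] at hp hq hr hw
  exact S.no_four ht ht2 ht1 h1 h2 h3 h4 h5 h6 hp hq hr hw

/-- Two cycles exist when the degree is at least six. -/
theorem Setup.exists_ab {G : Subgroup (Perm α)} (S : Setup G) {t : Perm α} (ht : t ∈ G)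
    (ht2 : t * t = 1) (ht1 : t ≠ 1) (hn : 6 ≤ Fintype.card α) :
    ∃ a b, t a ≠ a ∧ t b ≠ b ∧ b ≠ a ∧ b ≠ t a := by
  have h1 := S.fixd_le ht ht2 ht1
  have h2 := card_moved_add t
  obtain ⟨a, ha⟩ : (Moved t).Nonempty := Finset.card_pos.1 (by omega)
  obtain ⟨b, hb, hb'⟩ := Finset.exists_mem_notMem_of_card_lt_card
    (s := ({a, t a} : Finset α)) (t := Moved t)
    (lt_of_le_of_lt Finset.card_le_two (by omega))
  rw [mem_Moved] at ha hb
  simp only [Finset.mem_insert, Finset.mem_singleton, not_or] at hb'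
  exact ⟨a, b, ha, hb, hb'.1, hb'.2⟩

/-- The square of a permutation fixing all but at most two points is the identity. -/
theorem sq_eq_of_compl_two (h : Perm α) (F : Finset α) (hF : ∀ p ∈ F, h p = p)
    (hc : (Fᶜ).card ≤ 2) (q : α) : h (h q) = q := by
  by_cases hq : q ∈ F
  · rw [hF q hq, hF q hq]
  by_contra hcon
  have hq1 : h q ∉ F := by
    intro h1
    have h2 := hF _ h1
    have h3 := h.injective h2
    exact hq (h3 ▸ h1)
  have hq2 : h (h q) ∉ F := by
    intro h1
    have h2 := hF _ h1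
    have h3 := h.injective h2
    exact hq1 (h3 ▸ h1)
  have d1 : q ≠ h q := by
    intro h1
    rw [← h1, ← h1] at hcon
    exact hcon rfl
  have d2 : h q ≠ h (h q) := fun h1 => d1 (h.injective h1)
  have : 2 < (Fᶜ).card := by
    rw [Finset.two_lt_card]
    refine ⟨q, by simpa using hq, h q, by simpa using hq1, h (h q), by simpa using hq2, d1,
      Ne.symm hcon, d2⟩
  omega

/-- The number of moved points is at most 8. -/
theorem Setup.moved_le_eight {G : Subgroup (Perm α)} (S : Setup G) (hU : UProp G)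
    (h3 : ∀ t ∈ G, t * t = 1 → t ≠ 1 → (Fixd t).card = 3) {s : Perm α} (hsG : s ∈ G)
    (hs : s * s = 1) (hs1 : s ≠ 1) : (Moved s).card ≤ 8 := by
  classical
  have ss := apply_apply_of_sq hs
  obtain ⟨a, ha⟩ : ∃ a, s a ≠ a := by
    by_contra hcon
    push_neg at hcon
    exact hs1 (Equiv.ext hcon)
  set S₁ : Finset α := Moved s \ {a, s a} with hS₁
  have hOS : ({a, s a} : Finset α) ⊆ Moved s := by
    intro q hq
    simp only [Finset.mem_insert, Finset.mem_singleton] at hq
    rw [mem_Moved]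
    rcases hq with rfl | rfl
    · exact ha
    · rw [ss]; exact ha.symm
  have hc2 : (Moved s).card = S₁.card + 2 := by
    rw [hS₁, ← Finset.card_pair ha.symm, Finset.card_sdiff_add_card_eq_card hOS]
  have hmem : ∀ b, b ∈ S₁ ↔ s b ≠ b ∧ b ≠ a ∧ b ≠ s a := by
    intro b
    simp [hS₁, mem_Moved]
  have key : ∀ b, b ∈ S₁ → ∃ (β : α) (t : Perm α), β ∈ Fixd s ∧ t ∈ G ∧ t * t = 1 ∧ t * s = s * t ∧
      t a = a ∧ t (s a) = s a ∧ t b = s b ∧ t (s b) = b ∧ t β = β ∧ β ≠ a ∧ β ≠ s a := by
    intro b hb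
    obtain ⟨b1, b2, b3⟩ := (hmem b).1 hb
    obtain ⟨x, hxG, hx, hc, xa, xsa, xb, xsb⟩ := S.exists_comm_swap hsG hs ha b1 b2 b3
    have hx1 : x ≠ 1 := by
      rintro rfl
      exact b1 xb.symm
    have hf3 := h3 x hxG hx hx1
    obtain ⟨β, hβ, hβ'⟩ := Finset.exists_mem_notMem_of_card_lt_card
      (s := ({a, s a} : Finset α)) (t := Fixd x)
      (lt_of_le_of_lt Finset.card_le_two (by omega))
    rw [mem_Fixd] at hβ
    simp only [Finset.mem_insert, Finset.mem_singleton, not_or] at hβ'
    have hsβ : β ∈ Fixd s := by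
      rw [mem_Fixd]
      by_contra hcon
      rcases S.fix_of_comm hxG hx hx1 hc hs ha xa xsa hβ hcon with h | h
      · exact hβ'.1 h
      · exact hβ'.2 h
    exact ⟨β, x, hsβ, hxG, hx, hc, xa, xsa, xb, xsb, hβ, hβ'.1, hβ'.2⟩
  choose! f t hf using key
  have hcard : S₁.card ≤ 2 * (Fixd s).card := by
    apply Finset.card_le_mul_card_image_of_maps_to (f := f)
    · intro b hb
      exact (hf b hb).1
    · intro β _
      by_cases hne : (S₁.filter (fun b => f b = β)).Nonempty
      · obtain ⟨b₀, hb₀⟩ := hne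
        rw [Finset.mem_filter] at hb₀
        refine le_trans (Finset.card_le_card (t := {b₀, s b₀}) ?_) Finset.card_le_two
        intro b hb
        rw [Finset.mem_filter] at hb
        simp only [Finset.mem_insert, Finset.mem_singleton]
        obtain ⟨-, h2, h4, h5, h6, h7, h8, h9, h10, h11, h12⟩ := hf b₀ hb₀.1
        obtain ⟨-, h2', h4', h5', h6', h7', h8', h9', h10', h11', h12'⟩ := hf b hb.1
        rw [hb₀.2] at h10 h11 h12
        rw [hb.2] at h10' h11' h12'
        have hb₀1 : s b₀ ≠ b₀ := ((hmem b₀).1 hb₀.1).1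
        have hb1 : s b ≠ b := ((hmem b).1 hb.1).1
        have ht1 : t b₀ ≠ 1 := by
          intro h
          rw [h] at h8
          exact hb₀1 h8.symm
        have ht1' : t b ≠ 1 := by
          intro h
          rw [h] at h8'
          exact hb1 h8'.symm
        have heq : t b₀ = t b := hU a (s a) ha.symm _ h2 _ h2' h4 h4' ht1 ht1' h6 h7 h6' h7' β h11
          h12 (by rw [h10, h10'])
        rw [← heq] at h8' h9'
        -- `t * s` fixes the two cycles
        by_contra hcon
        push_neg at hcon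
        have hy2 : (t b₀ * s) * (t b₀ * s) = 1 := by
          calc (t b₀ * s) * (t b₀ * s) = t b₀ * (s * t b₀) * s := by group
            _ = t b₀ * (t b₀ * s) * s := by rw [h5]
            _ = (t b₀ * t b₀) * (s * s) := by group
            _ = 1 := by rw [h4, hs, one_mul]
        have hy1 : t b₀ * s ≠ 1 := by
          intro h
          have := congrArg (fun g : Perm α => g a) h
          simp only [Perm.mul_apply, Perm.coe_one, id_eq] at this
          rw [h7] at this
          exact ha this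
        refine S.no_four (G.mul_mem h2 hsG) hy2 hy1 (p := b₀) (q := s b₀) (r := b) (w := s b)
          hb₀1.symm (Ne.symm hcon.1) ?_ ?_ ?_ hb1.symm ?_ ?_ ?_ ?_
        · intro h
          apply hcon.2
          rw [h, ss]
        · intro h
          exact hcon.2 h.symm
        · intro h
          exact hcon.1 (s.injective h).symm
        · simp only [Perm.mul_apply]; exact h9
        · simp only [Perm.mul_apply]; rw [ss]; exact h8
        · simp only [Perm.mul_apply]; exact h9'
        · simp only [Perm.mul_apply]; rw [ss]; exact h8'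
      · rw [Finset.not_nonempty_iff_eq_empty] at hne
        rw [hne]; simp
  rw [h3 s hsG hs hs1] at hcard
  omega

/-- The four-point stabilizers are trivial when there are 8 moved points. -/
theorem Setup.k4_trivial {G : Subgroup (Perm α)} (S : Setup G) (hU : UProp G)
    (h3 : ∀ t ∈ G, t * t = 1 → t ≠ 1 → (Fixd t).card = 3)
    (h8 : ∀ t ∈ G, t * t = 1 → t ≠ 1 → (Moved t).card = 8)
    {p₁ p₂ p₃ p₄ : α} (d12 : p₁ ≠ p₂) (d13 : p₁ ≠ p₃) (d14 : p₁ ≠ p₄) (d23 : p₂ ≠ p₃)
    (d24 : p₂ ≠ p₄) (d34 : p₃ ≠ p₄) {h : Perm α} (hh : h ∈ G) (h1 : h p₁ = p₁) (h2 : h p₂ = p₂)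
    (h3' : h p₃ = p₃) (h4 : h p₄ = p₄) : h = 1 := by
  classical
  obtain ⟨x, hxG, hx, x1, x2, x3, x4⟩ := S.exists_inv_swap d12 d13 d14 d23 d24 d34
  obtain ⟨y, hyG, hy, y3, y4, y1, y2⟩ := S.exists_inv_swap d34 d13.symm d23.symm d14.symm d24.symm
    d12
  have hx1 : x ≠ 1 := by
    rintro rfl
    exact d34 x3
  have hy1 : y ≠ 1 := by
    rintro rfl
    exact d12 y1
  have xx := apply_apply_of_sq hx
  have yy := apply_apply_of_sq hy
  have hyinv : y⁻¹ = y := inv_eq_of_mul_eq_one_right hy
  have hxinv : x⁻¹ = x := inv_eq_of_mul_eq_one_right hx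
  -- `x` and `y` commute
  have hxy : y * x * y = x := by
    apply hU p₁ p₂ d12 _ (G.mul_mem (G.mul_mem hyG hxG) hyG) _ hxG _ hx _ hx1 _ _ x1 x2 p₃ d13.symm
      d23.symm
    · simp only [Perm.mul_apply]; rw [y3, x3, y4]
    · calc (y * x * y) * (y * x * y) = y * x * (y * y) * x * y := by group
        _ = y * (x * x) * y := by rw [hy]; group
        _ = 1 := by rw [hx, mul_one, hy]
    · intro h0
      apply hx1
      have : x = y * (y * x * y) * y := by
        calc x = (y * y) * x * (y * y) := by rw [hy]; group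
          _ = y * (y * x * y) * y := by group
      rw [this, h0, mul_one, hy]
    · simp only [Perm.mul_apply]; rw [y1, x2, y2]
    · simp only [Perm.mul_apply]; rw [y2, x1, y1]
  have hc : x * y = y * x := by
    calc x * y = (y * x * y) * y := by rw [hxy]
      _ = y * x * (y * y) := by group
      _ = y * x := by rw [hy, mul_one]
  have hs : (x * y) * (x * y) = 1 := by
    calc (x * y) * (x * y) = x * (y * x) * y := by group
      _ = x * (x * y) * y := by rw [hc]
      _ = (x * x) * (y * y) := by group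
      _ = 1 := by rw [hx, hy, one_mul]
  set s := x * y with hsdef
  have hsG : s ∈ G := G.mul_mem hxG hyG
  have s1 : s p₁ = p₂ := by simp only [hsdef, Perm.mul_apply]; rw [y1, x2]
  have s2 : s p₂ = p₁ := by simp only [hsdef, Perm.mul_apply]; rw [y2, x1]
  have s3 : s p₃ = p₄ := by simp only [hsdef, Perm.mul_apply]; rw [y3, x3]
  have s4 : s p₄ = p₃ := by simp only [hsdef, Perm.mul_apply]; rw [y4, x4]
  have hs1 : s ≠ 1 := by
    intro h0
    rw [h0] at s1
    exact d12 s1
  have ss := apply_apply_of_sq hs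
  -- `h` commutes with `x` and `y`
  have hinv : ∀ i, (h⁻¹ : Perm α) i = i → h i = i := by
    intro i hi
    rw [Perm.inv_eq_iff_eq] at hi
    exact hi.symm
  have hinv1 : (h⁻¹ : Perm α) p₁ = p₁ := by rw [Perm.inv_eq_iff_eq]; exact h1.symm
  have hinv2 : (h⁻¹ : Perm α) p₂ = p₂ := by rw [Perm.inv_eq_iff_eq]; exact h2.symm
  have hinv3 : (h⁻¹ : Perm α) p₃ = p₃ := by rw [Perm.inv_eq_iff_eq]; exact h3'.symm
  have hinv4 : (h⁻¹ : Perm α) p₄ = p₄ := by rw [Perm.inv_eq_iff_eq]; exact h4.symm
  have conj_sq : ∀ z : Perm α, z * z = 1 → (h * z * h⁻¹) * (h * z * h⁻¹) = 1 := by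
    intro z hz
    calc (h * z * h⁻¹) * (h * z * h⁻¹) = h * (z * z) * h⁻¹ := by group
      _ = 1 := by rw [hz]; group
  have conj_ne : ∀ z : Perm α, z ≠ 1 → h * z * h⁻¹ ≠ 1 := by
    intro z hz h0
    apply hz
    have : z = h⁻¹ * (h * z * h⁻¹) * h := by group
    rw [this, h0]; group
  have hhx : h * x * h⁻¹ = x := by
    apply hU p₁ p₂ d12 _ (G.mul_mem (G.mul_mem hh hxG) (G.inv_mem hh)) _ hxG (conj_sq x hx) hx
      (conj_ne x hx1) hx1 _ _ x1 x2 p₃ d13.symm d23.symm
    · simp only [Perm.mul_apply]; rw [hinv3, x3, h4]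
    · simp only [Perm.mul_apply]; rw [hinv1, x1, h1]
    · simp only [Perm.mul_apply]; rw [hinv2, x2, h2]
  have hhy : h * y * h⁻¹ = y := by
    apply hU p₃ p₄ d34 _ (G.mul_mem (G.mul_mem hh hyG) (G.inv_mem hh)) _ hyG (conj_sq y hy) hy
      (conj_ne y hy1) hy1 _ _ y3 y4 p₁ d13 d14
    · simp only [Perm.mul_apply]; rw [hinv1, y1, h2]
    · simp only [Perm.mul_apply]; rw [hinv3, y3, h3']
    · simp only [Perm.mul_apply]; rw [hinv4, y4, h4]
  have chx : h * x = x * h := mul_inv_eq_iff_eq_mul.1 hhx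
  have chy : h * y = y * h := mul_inv_eq_iff_eq_mul.1 hhy
  have chs : h * s = s * h := by
    rw [hsdef, ← mul_assoc, chx, mul_assoc, chy, mul_assoc]
  have hxs : x * s = s * x := by
    rw [hsdef, ← mul_assoc, mul_assoc x y x, ← hc, mul_assoc]
  have sx := apply_comm hxs.symm
  have hfacts : ∀ q, s q ≠ q → q ≠ p₁ → q ≠ p₂ → q ≠ p₃ → q ≠ p₄ → x q ≠ q ∧ s (x q) ≠ q := by
    intro q a1 a2 a3 a4 a5
    have e1 : s p₁ = p₂ := s1
    have e3 : s p₃ = p₄ := s3
    exact S.moved_facts (a := p₁) (b := p₃) hsG hs hxG hx hxs (by rw [e1]; exact d12.symm)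
      (by rw [e3]; exact d34.symm) x1 (by rw [e1]; exact x2) (by rw [e3]; exact x3)
      (by rw [e3]; exact x4) a1 a2 (by rw [e1]; exact a3) a4 (by rw [e3]; exact a5)
  -- the set of remaining moved points
  set O : Finset α := {p₁, p₂, p₃, p₄} with hO
  have hOS : O ⊆ Moved s := by
    intro q hq
    simp only [hO, Finset.mem_insert, Finset.mem_singleton] at hq
    rw [mem_Moved]
    rcases hq with rfl | rfl | rfl | rfl
    · rw [s1]; exact d12.symm
    · rw [s2]; exact d12
    · rw [s3]; exact d34.symm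
    · rw [s4]; exact d34
  have hOcard : O.card = 4 := by
    rw [hO, Finset.card_insert_of_notMem, Finset.card_insert_of_notMem,
      Finset.card_insert_of_notMem, Finset.card_singleton]
    · simpa using d34
    · simp [d23, d24]
    · simp [d12, d13, d14]
  have hRcard : (Moved s \ O).card = 4 := by
    have := Finset.card_sdiff_add_card_eq_card hOS
    rw [hOcard, h8 s hsG hs hs1] at this
    omega
  have hq : ∀ q, q ∈ Moved s \ O → s q ≠ q ∧ q ≠ p₁ ∧ q ≠ p₂ ∧ q ≠ p₃ ∧ q ≠ p₄ := by
    intro q hq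
    simp only [hO, Finset.mem_sdiff, Finset.mem_insert, Finset.mem_singleton, not_or,
      mem_Moved] at hq
    exact ⟨hq.1, hq.2.1, hq.2.2.1, hq.2.2.2.1, hq.2.2.2.2⟩
  have hq' : ∀ q, s q ≠ q → q ≠ p₁ → q ≠ p₂ → q ≠ p₃ → q ≠ p₄ → q ∈ Moved s \ O := by
    intro q a1 a2 a3 a4 a5
    simp only [hO, Finset.mem_sdiff, Finset.mem_insert, Finset.mem_singleton, not_or, mem_Moved]
    exact ⟨a1, a2, a3, a4, a5⟩
  have cs : ∀ r, h (s r) = s (h r) := apply_comm chs
  have cx : ∀ r, h (x r) = x (h r) := apply_comm chx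
  -- `h` squared fixes the remaining moved points
  have hsqR : ∀ q, q ∈ Moved s \ O → h (h q) = q := by
    intro q hq0
    obtain ⟨a1, a2, a3, a4, a5⟩ := hq q hq0
    obtain ⟨b1, b2⟩ := hfacts q a1 a2 a3 a4 a5
    have m1 : s q ∈ Moved s \ O := by
      refine hq' _ ?_ ?_ ?_ ?_ ?_
      · rw [ss]; exact a1.symm
      · intro h0; apply a3; rw [← s1, ← h0, ss]
      · intro h0; apply a2; rw [← s2, ← h0, ss]
      · intro h0; apply a5; rw [← s3, ← h0, ss]
      · intro h0; apply a4; rw [← s4, ← h0, ss]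
    have m2 : x q ∈ Moved s \ O := by
      refine hq' _ ?_ ?_ ?_ ?_ ?_
      · rw [sx]
        intro h0
        exact a1 (x.injective h0)
      · intro h0; apply a2; rw [← x1, ← h0, apply_apply_of_sq hx]
      · intro h0; apply a3; rw [← x2, ← h0, apply_apply_of_sq hx]
      · intro h0; apply a5; rw [← x3, ← h0, apply_apply_of_sq hx]
      · intro h0; apply a4; rw [← x4, ← h0, apply_apply_of_sq hx]
    have m3 : s (x q) ∈ Moved s \ O := by
      obtain ⟨c1, c2, c3, c4, c5⟩ := hq _ m2
      refine hq' _ ?_ ?_ ?_ ?_ ?_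
      · rw [ss]; exact c1.symm
      · intro h0; apply c3; rw [← s1, ← h0, ss]
      · intro h0; apply c2; rw [← s2, ← h0, ss]
      · intro h0; apply c5; rw [← s3, ← h0, ss]
      · intro h0; apply c4; rw [← s4, ← h0, ss]
    have hsub : ({q, s q, x q, s (x q)} : Finset α) ⊆ Moved s \ O := by
      intro r hr
      simp only [Finset.mem_insert, Finset.mem_singleton] at hr
      rcases hr with rfl | rfl | rfl | rfl
      · exact hq0
      · exact m1
      · exact m2
      · exact m3
    have hcard4 : ({q, s q, x q, s (x q)} : Finset α).card = 4 := by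
      have e1 : q ≠ s q := a1.symm
      have e2 : q ≠ x q := b1.symm
      have e3 : q ≠ s (x q) := b2.symm
      have e4 : s q ≠ x q := by
        intro h0
        apply b2
        rw [← h0, ss]
      have e5 : s q ≠ s (x q) := fun h0 => e2 (s.injective h0)
      have e6 : x q ≠ s (x q) := by
        rw [sx]
        intro h0
        exact a1 (x.injective h0).symm
      rw [Finset.card_insert_of_notMem, Finset.card_insert_of_notMem,
        Finset.card_insert_of_notMem, Finset.card_singleton]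
      · simpa using e6
      · simp [e4, e5]
      · simp [e1, e2, e3]
    have heq : ({q, s q, x q, s (x q)} : Finset α) = Moved s \ O :=
      Finset.eq_of_subset_of_card_le hsub (by rw [hcard4, hRcard])
    have hhq : h q ∈ Moved s \ O := by
      refine hq' _ ?_ ?_ ?_ ?_ ?_
      · rw [← cs]
        intro h0
        exact a1 (h.injective h0)
      · intro h0; apply a2; apply h.injective; rw [h0, h1]
      · intro h0; apply a3; apply h.injective; rw [h0, h2]
      · intro h0; apply a4; apply h.injective; rw [h0, h3']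
      · intro h0; apply a5; apply h.injective; rw [h0, h4]
    rw [← heq] at hhq
    simp only [Finset.mem_insert, Finset.mem_singleton] at hhq
    rcases hhq with h0 | h0 | h0 | h0
    · rw [h0, h0]
    · rw [h0, cs, h0, ss]
    · rw [h0, cx, h0, apply_apply_of_sq hx]
    · rw [h0, cs, cx, h0, sx, ss, apply_apply_of_sq hx]
  -- the third fixed point of `x`
  obtain ⟨β, hβ, hβ'⟩ := Finset.exists_mem_notMem_of_card_lt_card
    (s := ({p₁, p₂} : Finset α)) (t := Fixd x)
    (lt_of_le_of_lt Finset.card_le_two (by rw [h3 x hxG hx hx1]; omega))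
  rw [mem_Fixd] at hβ
  simp only [Finset.mem_insert, Finset.mem_singleton, not_or] at hβ'
  have hsp₁ : s p₁ ≠ p₁ := by rw [s1]; exact d12.symm
  have hsβ : s β = β := by
    by_contra hcon
    rcases S.fix_of_comm hxG hx hx1 hxs hs hsp₁ x1 (by rw [s1]; exact x2) hβ hcon with h0 | h0
    · exact hβ'.1 h0
    · rw [s1] at h0
      exact hβ'.2 h0
  have hhβ : h β = β := by
    by_contra hcon
    have e1 : h β ≠ p₁ := ne_of_fix h1 hβ'.1
    have e2 : h β ≠ p₂ := ne_of_fix h2 hβ'.2
    have e3 : x (h β) = h β := by rw [← cx, hβ]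
    exact S.no_four hxG hx hx1 (p := p₁) (q := p₂) (r := β) (w := h β) d12 (Ne.symm hβ'.1)
      e1.symm (Ne.symm hβ'.2) e2.symm (Ne.symm hcon) x1 x2 hβ e3
  have hβM : β ∉ Moved s := by
    rw [mem_Moved]; simpa using hsβ
  set F : Finset α := insert β (Moved s) with hF
  have hFfix : ∀ p ∈ F, (h * h) p = p := by
    intro p hp
    simp only [Perm.mul_apply]
    rw [hF, Finset.mem_insert] at hp
    rcases hp with rfl | hp
    · rw [hhβ, hhβ]
    · by_cases hpO : p ∈ O
      · simp only [hO, Finset.mem_insert, Finset.mem_singleton] at hpO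
        rcases hpO with rfl | rfl | rfl | rfl
        · rw [h1, h1]
        · rw [h2, h2]
        · rw [h3', h3']
        · rw [h4, h4]
      · exact hsqR p (Finset.mem_sdiff.2 ⟨hp, hpO⟩)
  have hFcard : F.card = 9 := by
    rw [hF, Finset.card_insert_of_notMem hβM, h8 s hsG hs hs1]
  have hn : Fintype.card α = 11 := by
    have h0 := card_moved_add s
    rw [h8 s hsG hs hs1, h3 s hsG hs hs1] at h0
    omega
  have hFc : (Fᶜ).card ≤ 2 := by
    rw [Finset.card_compl, hFcard, hn]
  have hsq4 : ∀ q, (h * h) ((h * h) q) = q := sq_eq_of_compl_two (h * h) F hFfix hFc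
  apply S.two_elt (b := ![p₁, p₂, p₃, p₄]) (inj4 d12 d13 d14 d23 d24 d34) hh (e := 2)
  · intro i
    fin_cases i <;> simp [h1, h2, h3', h4]
  · apply Equiv.ext
    intro q
    have := hsq4 q
    simp only [Perm.mul_apply] at this
    have e : h ^ 2 ^ 2 = h * h * (h * h) := by
      norm_num [pow_succ]
      group
    rw [e]
    simpa [Perm.mul_apply] using this

end Cfsg.Agent.Lib.FourTrans
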