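import Mathlib
import Cfsg.Agent.Lib.FourTrans.Large

/-!
# Four-fold transitive groups with odd four-point stabilizers: the main theorem

The Feit-Thompson theorem and Glauberman's Z*-theorem enter as hypotheses.
-/

set_option autoImplicit false

namespace Cfsg.Agent.Lib.FourTrans

open Equiv

universe u

variable {α : Type u} [Fintype α] [DecidableEq α]

/-- The degree is `6`, `7` or `11` as soon as it is at least `6`. -/
theorem Setup.main_large {G : Subgroup (Perm α)} (S : Setup G)
    (ft : ∀ (X : Type u) [Group X] [Finite X], Odd (Nat.card X) → Group.IsSolvable X)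
    (zs : ∀ (X : Type u) [Group X] [Finite X] (P : Sylow 2 X) (v : X), orderOf v = 2 → v ∈ P →
      (∀ g : X, g * v * g⁻¹ ∈ P → g * v * g⁻¹ = v) →
        ∃ N : Subgroup X, N.Normal ∧ Odd (Nat.card N) ∧ ∀ g : X, (v * g * v⁻¹ * g⁻¹) ∈ N)
    (hn : 6 ≤ Fintype.card α) :
    Fintype.card α = 6 ∨ Fintype.card α = 7 ∨
      (Fintype.card α = 11 ∧ ∀ b : Fin 4 → α, Function.Injective b → ∀ h ∈ G,
        (∀ i, h (b i) = b i) → h = 1) := by
  have hmv : ∀ t ∈ G, t * t = 1 → t ≠ 1 → 4 ∣ (Moved t).card := by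
    intro t ht ht2 ht1
    obtain ⟨a, b, h1, h2, h3, h4⟩ := S.exists_ab ht ht2 ht1 hn
    exact S.four_dvd_moved ht ht2 h1 h2 h3 h4
  have hfx : ∀ t ∈ G, t * t = 1 → t ≠ 1 → (Fixd t).card ≤ 3 := fun t ht ht2 ht1 =>
    S.fixd_le ht ht2 ht1
  have huni : ∀ t ∈ G, t * t = 1 → t ≠ 1 → ∀ t' ∈ G, t' * t' = 1 → t' ≠ 1 →
      (Fixd t').card = (Fixd t).card := by
    intro t ht ht2 ht1 t' ht' ht'2 ht'1
    have h1 := hmv t ht ht2 ht1
    have h2 := hmv t' ht' ht'2 ht'1
    have h3 := hfx t ht ht2 ht1
    have h4 := hfx t' ht' ht'2 ht'1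
    have h5 := card_moved_add t
    have h6 := card_moved_add t'
    omega
  obtain ⟨c, -, d, -, e, -, f, -, d1, d2, d3, d4, d5, d6⟩ :=
    exists_four (Finset.univ : Finset α) (by rw [Finset.card_univ]; omega)
  obtain ⟨x₀, hx₀G, hx₀, xc, xd, xe, xf⟩ := S.exists_inv_swap d1 d2 d3 d4 d5 d6
  have hx₀1 : x₀ ≠ 1 := by
    rintro rfl
    exact d6 xe
  have hf₀ : 2 ≤ (Fixd x₀).card := by
    have : ({c, d} : Finset α) ⊆ Fixd x₀ := by
      intro q hq
      simp only [Finset.mem_insert, Finset.mem_singleton] at hq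
      rw [mem_Fixd]
      rcases hq with rfl | rfl
      · exact xc
      · exact xd
    have h2 := Finset.card_le_card this
    rwa [Finset.card_pair d1] at h2
  have hf₀' := hfx x₀ hx₀G hx₀ hx₀1
  have hM₀ := hmv x₀ hx₀G hx₀ hx₀1
  have hadd := card_moved_add x₀
  obtain ⟨a, b, a1, a2, a3, a4⟩ := S.exists_ab hx₀G hx₀ hx₀1 hn
  have hmod := S.not_mod8 hx₀G hx₀ a1 a2 a3 a4
  by_cases hM4 : (Moved x₀).card = 4
  · by_cases h2 : (Fixd x₀).card = 2
    · left; omega
    · right; left; omega
  right; right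
  have hmod' := hmod hM4
  have h8₀ : 8 ∣ (Moved x₀).card := by omega
  have hMall : ∀ t ∈ G, t * t = 1 → t ≠ 1 → (Moved t).card = (Moved x₀).card := by
    intro t ht ht2 ht1
    have h1 := huni x₀ hx₀G hx₀ hx₀1 t ht ht2 ht1
    have h2 := card_moved_add t
    omega
  have h8 : ∀ t ∈ G, t * t = 1 → t ≠ 1 → 8 ∣ (Moved t).card := by
    intro t ht ht2 ht1
    rw [hMall t ht ht2 ht1]
    exact h8₀
  have hN : ∀ {c d : α}, c ≠ d →
      ∃ N : Subgroup (Y2 G c d), N.Normal ∧ Odd (Nat.card N) ∧ N ≠ ⊥ := by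
    intro c d hcd
    exact S.exists_normal_odd hcd (zs (Y2 G c d)) huni h8 hn
  by_cases hf2 : (Fixd x₀).card = 2
  · -- the even case is impossible
    exfalso
    obtain ⟨N, hN1, hN2, hN3⟩ := hN d1
    have h1 := S.odd_card_of_normal d1 d2.symm d4.symm N hN1 hN2 hN3
    have h2 : Fintype.card α - 2 = (Moved x₀).card := by omega
    rw [h2] at h1
    exact (Nat.not_even_iff_odd.2 h1) (by
      rw [even_iff_two_dvd]
      exact dvd_trans (by norm_num) h8₀)
  have hf3 : (Fixd x₀).card = 3 := by omega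
  have h3 : ∀ t ∈ G, t * t = 1 → t ≠ 1 → (Fixd t).card = 3 := by
    intro t ht ht2 ht1
    rw [huni x₀ hx₀G hx₀ hx₀1 t ht ht2 ht1, hf3]
  have hU : UProp G := by
    intro c d hcd t htG t' ht'G ht2 ht'2 ht1 ht'1 htc htd ht'c ht'd p hpc hpd hp
    obtain ⟨N, hN1, hN2, hN3⟩ := hN hcd
    obtain ⟨A, hA1, hA2, -, hA4⟩ := exists_abelian_normal
      (fun H : Subgroup (Y2 G c d) => ft H) _ N rfl hN1 hN2 hN3
    refine S.unique_of_abelian hcd A hA1 hA2 hA4 ?_ htG ht'G ht2 ht'2 ht1 ht'1 htc htd ht'c ht'd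
      hpc hpd hp
    intro τ hτG hτ2 hτ1 hτc hτd
    obtain ⟨e, he, he'⟩ := Finset.exists_mem_notMem_of_card_lt_card
      (s := ({c, d} : Finset α)) (t := Fixd τ)
      (lt_of_le_of_lt Finset.card_le_two (by rw [h3 τ hτG hτ2 hτ1]; omega))
    rw [mem_Fixd] at he
    simp only [Finset.mem_insert, Finset.mem_singleton, not_or] at he'
    exact ⟨e, he'.1, he'.2, he⟩
  have hle := S.moved_le_eight hU h3 hx₀G hx₀ hx₀1
  have hM8 : (Moved x₀).card = 8 := by omega
  have h8' : ∀ t ∈ G, t * t = 1 → t ≠ 1 → (Moved t).card = 8 := by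
    intro t ht ht2 ht1
    rw [hMall t ht ht2 ht1, hM8]
  refine ⟨by omega, ?_⟩
  intro b hb h hh hfix
  have hne : ∀ i j : Fin 4, i ≠ j → b i ≠ b j := fun i j hij h0 => hij (hb h0)
  exact S.k4_trivial hU h3 h8' (hne 0 1 (by decide)) (hne 0 2 (by decide)) (hne 0 3 (by decide))
    (hne 1 2 (by decide)) (hne 1 3 (by decide)) (hne 2 3 (by decide)) hh (hfix 0) (hfix 1) (hfix 2)
    (hfix 3)

/-- The stabilizer of the four points when the degree is six is trivial. -/
theorem Setup.k4_six {G : Subgroup (Perm α)} (S : Setup G) (hn : Fintype.card α = 6)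
    {b : Fin 4 → α} (hb : Function.Injective b) {h : Perm α} (hh : h ∈ G)
    (hfix : ∀ i, h (b i) = b i) : h = 1 := by
  classical
  have hF : (Finset.univ.image b).card = 4 := by
    rw [Finset.card_image_of_injective _ hb]; rfl
  have hsq := sq_eq_of_compl_two h (Finset.univ.image b)
    (by
      intro p hp
      obtain ⟨i, -, rfl⟩ := Finset.mem_image.1 hp
      exact hfix i)
    (by rw [Finset.card_compl, hF, hn])
  apply S.two_elt hb hh hfix (e := 1)
  apply Equiv.ext
  intro q
  simpa [pow_two, Perm.mul_apply] using hsq q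

/-- In degree seven the stabilizer of four points has at most three elements. -/
theorem Setup.k4_seven_le {G : Subgroup (Perm α)} (S : Setup G) (hn : Fintype.card α = 7)
    {b : Fin 4 → α} (hb : Function.Injective b) : Nat.card (K4 G b) ≤ 3 := by
  classical
  have hF : (Finset.univ.image b).card = 4 := by
    rw [Finset.card_image_of_injective _ hb]; rfl
  set F := Finset.univ.image b with hFdef
  have hmemF : ∀ h ∈ K4 G b, ∀ p ∈ F, h p = p := by
    intro h hh p hp
    obtain ⟨i, -, rfl⟩ := Finset.mem_image.1 hp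
    exact hh.2 i
  have hRcard : (Fᶜ).card = 3 := by
    rw [Finset.card_compl, hF, hn]
  obtain ⟨r, hr⟩ : (Fᶜ).Nonempty := Finset.card_pos.1 (by omega)
  have hrF : r ∉ F := by simpa using hr
  have horb := card_orbit_stab (K4 G b) r
    ((Fᶜ).filter (fun q => ∃ g ∈ K4 G b, g r = q)) (by
      intro q
      rw [Finset.mem_filter]
      constructor
      · exact fun h => h.2
      · rintro ⟨g, hg, rfl⟩
        refine ⟨?_, g, hg, rfl⟩
        rw [Finset.mem_compl]
        intro h1
        have h2 := hmemF g hg _ h1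
        have h3 := g.injective h2
        exact hrF (h3 ▸ h1))
  have hbot : CP (K4 G b) r = ⊥ := by
    rw [eq_bot_iff]
    rintro h ⟨hh, hhr⟩
    rw [Subgroup.mem_bot]
    have hsq := sq_eq_of_compl_two h (insert r F)
      (by
        intro p hp
        rw [Finset.mem_insert] at hp
        rcases hp with rfl | hp
        · exact hhr
        · exact hmemF h hh p hp)
      (by rw [Finset.card_compl, Finset.card_insert_of_notMem hrF, hF, hn])
    apply S.two_elt hb hh.1 hh.2 (e := 1)
    apply Equiv.ext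
    intro q
    simpa [pow_two, Perm.mul_apply] using hsq q
  rw [hbot, Subgroup.card_bot, mul_one] at horb
  rw [horb]
  exact (Finset.card_filter_le _ _).trans hRcard.le

/-- In degree seven some stabilizer of four points is non-trivial. -/
theorem Setup.k4_seven_ne {G : Subgroup (Perm α)} (S : Setup G) (hn : Fintype.card α = 7) :
    ∃ b : Fin 4 → α, Function.Injective b ∧ Nat.card (K4 G b) ≠ 1 := by
  classical
  obtain ⟨c, -, d, -, e, -, f, -, d1, d2, d3, d4, d5, d6⟩ :=
    exists_four (Finset.univ : Finset α) (by rw [Finset.card_univ]; omega)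
  obtain ⟨s, hsG, hs, xc, xd, xe, xf⟩ := S.exists_inv_swap d1 d2 d3 d4 d5 d6
  have hs1 : s ≠ 1 := by
    rintro rfl
    exact d6 xe
  have hn6 : 6 ≤ Fintype.card α := by omega
  obtain ⟨a, b, a1, a2, a3, a4⟩ := S.exists_ab hsG hs hs1 hn6
  have h4 := S.four_dvd_moved hsG hs a1 a2 a3 a4
  have h3 := S.fixd_le hsG hs hs1
  have hadd := card_moved_add s
  have ha : a ∈ Moved s := mem_Moved.2 a1
  have hcard0 : 0 < (Moved s).card := Finset.card_pos.2 ⟨a, ha⟩
  have hM : (Moved s).card = 4 := by omega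
  have hT : (Fixd s).card = 3 := by omega
  obtain ⟨τ₁, τ₂, τ₃, t12, t13, t23, hT'⟩ := Finset.card_eq_three.1 hT
  have fτ : ∀ τ ∈ Fixd s, s τ = τ := fun τ h => mem_Fixd.1 h
  have f1 : s τ₁ = τ₁ := fτ _ (by simp [hT'])
  have f2 : s τ₂ = τ₂ := fτ _ (by simp [hT'])
  have f3 : s τ₃ = τ₃ := fτ _ (by simp [hT'])
  have ss := apply_apply_of_sq hs
  have nm : ∀ {τ : α}, s τ = τ → ∀ p, s p ≠ p → p ≠ τ := by
    intro τ hτ p hp h0
    rw [h0] at hp
    exact hp hτ
  have e1 : a ≠ s a := a1.symm
  have e2 : a ≠ b := a3.symm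
  have e3 : a ≠ s b := by
    intro h; apply a4; rw [h, ss]
  have e4 : s a ≠ b := a4.symm
  have e5 : s a ≠ s b := fun h => a3 (s.injective h).symm
  have e6 : b ≠ s b := a2.symm
  have hsa : s (s a) ≠ s a := by rw [ss]; exact e1
  obtain ⟨g, hg, hga, hgs⟩ := S.witt1 (a := ![a, s a, τ₁, τ₂]) (b := ![a, s a, τ₂, τ₃])
    (inj4 e1 (nm f1 a a1) (nm f2 a a1) (nm f1 _ hsa) (nm f2 _ hsa) t12)
    (inj4 e1 (nm f2 a a1) (nm f3 a a1) (nm f2 _ hsa) (nm f3 _ hsa) t23) hsG hs ![1, 0, 2, 3]
    (by intro i; fin_cases i <;> simp [ss, f1, f2])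
    (by intro i; fin_cases i <;> simp [ss, f2, f3])
    ⟨0, by simp⟩
  have g0 := hga 0
  have g1 := hga 1
  have g2 := hga 2
  have g3 := hga 3
  simp only [Matrix.cons_val] at g0 g1 g2 g3
  have cs := apply_comm hgs
  -- `g` preserves the cycle of `b`
  have hMset : Moved s = {a, s a, b, s b} := by
    symm
    apply Finset.eq_of_subset_of_card_le
    · intro q hq
      simp only [Finset.mem_insert, Finset.mem_singleton] at hq
      rw [mem_Moved]
      rcases hq with rfl | rfl | rfl | rfl
      · exact a1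
      · rw [ss]; exact e1
      · exact a2
      · rw [ss]; exact e6
    · rw [hM, Finset.card_insert_of_notMem, Finset.card_insert_of_notMem,
        Finset.card_insert_of_notMem, Finset.card_singleton]
      · simpa using e6
      · simp [e4, e5]
      · simp [e1, e2, e3]
  have hgb : g b = b ∨ g b = s b := by
    have h1 : g b ∈ Moved s := by
      rw [mem_Moved, ← cs]
      intro h
      exact a2 (g.injective h)
    rw [hMset] at h1
    simp only [Finset.mem_insert, Finset.mem_singleton] at h1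
    rcases h1 with h1 | h1 | h1 | h1
    · exfalso; rw [← g0] at h1; exact e2 (g.injective h1).symm
    · exfalso; rw [← g1] at h1; exact e4 (g.injective h1).symm
    · exact Or.inl h1
    · exact Or.inr h1
  have hggb : g (g b) = b := by
    rcases hgb with h1 | h1
    · rw [h1, h1]
    · rw [h1, cs, h1, ss]
  refine ⟨![a, s a, b, s b], inj4 e1 e2 e3 e4 e5 e6, ?_⟩
  intro h1
  -- `g * g` is a non-trivial element
  have hmem : g * g ∈ K4 G ![a, s a, b, s b] := by
    refine ⟨G.mul_mem hg hg, fun i => ?_⟩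
    fin_cases i
    · simp [Perm.mul_apply, g0]
    · simp [Perm.mul_apply, g1]
    · simpa [Perm.mul_apply] using hggb
    · simp [Perm.mul_apply, cs, hggb]
  have hone : g * g = 1 := by
    have hsub := (Nat.card_eq_one_iff_unique.1 h1).1
    have := hsub.elim (⟨g * g, hmem⟩ : K4 G ![a, s a, b, s b]) 1
    exact congrArg Subtype.val this
  have := congrArg (fun y : Perm α => y τ₁) hone
  simp only [Perm.mul_apply, g2, g3, Perm.coe_one, id_eq] at this
  exact t13 this.symm

/-- The main theorem, with the Feit-Thompson theorem and the Z*-theorem as hypotheses. -/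
theorem main_thm
    (ft : ∀ (X : Type u) [Group X] [Finite X], Odd (Nat.card X) → Group.IsSolvable X)
    (zs : ∀ (X : Type u) [Group X] [Finite X] (P : Sylow 2 X) (v : X), orderOf v = 2 → v ∈ P →
      (∀ g : X, g * v * g⁻¹ ∈ P → g * v * g⁻¹ = v) →
        ∃ N : Subgroup X, N.Normal ∧ Odd (Nat.card N) ∧ ∀ g : X, (v * g * v⁻¹ * g⁻¹) ∈ N)
    (G : Subgroup (Perm α)) (hG : MulAction.IsMultiplyPretransitive G α 4) (x : Fin 4 ↪ α)
    (hodd : Odd (Nat.card (MulAction.stabilizer G x))) :
    ((Fintype.card α = 4 ∨ Fintype.card α = 5) ∧ G = ⊤) ∨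
      ((Fintype.card α = 6 ∨ Fintype.card α = 7) ∧ G = alternatingGroup α) ∨
      (Fintype.card α = 11 ∧ Nat.card G = 7920) := by
  classical
  have hcardE : Nat.card (Fin 4 ↪ α) = (Fintype.card α).descFactorial 4 := by
    rw [Nat.card_eq_fintype_card, Fintype.card_embedding_eq, Fintype.card_fin]
  have hstab : ∀ e : Fin 4 ↪ α, Nat.card (MulAction.stabilizer G e) *
      (Fintype.card α).descFactorial 4 = Nat.card G := by
    intro e
    have h1 := (MulAction.stabilizer G e).card_mul_index
    have h2 : (MulAction.stabilizer G e).index = Nat.card (Fin 4 ↪ α) :=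
      @MulAction.index_stabilizer_of_transitive G (Fin 4 ↪ α) _ _ e hG
    rwa [h2, hcardE] at h1
  have hdesc : (Fintype.card α).descFactorial 4 ≠ 0 := by
    intro h0
    have := hstab x
    rw [h0, mul_zero] at this
    have h1 : 0 < Nat.card G := Nat.card_pos
    omega
  have hKeq : ∀ (b : Fin 4 → α) (hb : Function.Injective b),
      Nat.card (K4 G b) = Nat.card (MulAction.stabilizer G x) := by
    intro b hb
    have h1 : Nat.card (K4 G b) = Nat.card (MulAction.stabilizer G (⟨b, hb⟩ : Fin 4 ↪ α)) := by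
      apply Nat.card_congr
      refine
        { toFun := fun k => ⟨⟨k.1, k.2.1⟩, ?_⟩
          invFun := fun k => ⟨k.1.1, k.1.2, ?_⟩
          left_inv := fun _ => rfl
          right_inv := fun _ => rfl }
      · rw [MulAction.mem_stabilizer_iff]
        ext i
        exact k.2.2 i
      · intro i
        have h2 := MulAction.mem_stabilizer_iff.1 k.2
        have h3 := congrArg (fun e : Fin 4 ↪ α => e i) h2
        exact h3
    rw [h1]
    have h2 := hstab ⟨b, hb⟩
    have h3 := hstab x
    exact Nat.eq_of_mul_eq_mul_right (Nat.pos_of_ne_zero hdesc) (h2.trans h3.symm)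
  have S : Setup G :=
    { trans := by
        intro a b ha hb
        obtain ⟨g, hg⟩ := hG.exists_smul_eq (⟨a, ha⟩ : Fin 4 ↪ α) ⟨b, hb⟩
        refine ⟨g, g.2, fun i => ?_⟩
        have := congrArg (fun e : Fin 4 ↪ α => e i) hg
        exact this
      odd := by
        intro b hb
        rw [hKeq b hb]
        exact hodd }
  have h4 : 4 ≤ Fintype.card α := by
    have := Fintype.card_le_of_embedding x
    simpa using this
  have hleG : Nat.card G ≤ (Fintype.card α).factorial := by
    have h1 := Subgroup.card_le_card_group G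
    rwa [Nat.card_eq_fintype_card (α := Perm α), Fintype.card_perm] at h1
  have htop : Nat.card G = (Fintype.card α).factorial → G = ⊤ := by
    intro h1
    apply Subgroup.eq_top_of_card_eq
    rw [Nat.card_eq_fintype_card (α := Perm α), Fintype.card_perm, h1]
  have hindex : Nat.card G * 2 = (Fintype.card α).factorial → G = alternatingGroup α := by
    intro h1
    apply Equiv.Perm.eq_alternatingGroup_of_index_eq_two
    have h2 := G.card_mul_index
    rw [Nat.card_eq_fintype_card (α := Perm α), Fintype.card_perm, ← h1] at h2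
    exact Nat.eq_of_mul_eq_mul_left Nat.card_pos h2
  have hpos : 0 < Nat.card (MulAction.stabilizer G x) := Nat.card_pos
  have hG0 := hstab x
  by_cases h45 : Fintype.card α < 6
  · left
    have h5 : Fintype.card α = 4 ∨ Fintype.card α = 5 := by omega
    refine ⟨h5, ?_⟩
    apply htop
    rcases h5 with h5 | h5
    · rw [h5] at hG0 hleG ⊢
      have e1 : (4 : ℕ).descFactorial 4 = 24 := by decide
      have e2 : (4 : ℕ).factorial = 24 := by decide
      rw [e1] at hG0
      rw [e2] at hleG ⊢
      omega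
    · rw [h5] at hG0 hleG ⊢
      have e1 : (5 : ℕ).descFactorial 4 = 120 := by decide
      have e2 : (5 : ℕ).factorial = 120 := by decide
      rw [e1] at hG0
      rw [e2] at hleG ⊢
      omega
  right
  rcases S.main_large ft zs (by omega) with h6 | h7 | ⟨h11, hK⟩
  · left
    refine ⟨Or.inl h6, ?_⟩
    apply hindex
    have hbot : K4 G x = ⊥ := by
      rw [eq_bot_iff]
      intro h hh
      rw [Subgroup.mem_bot]
      exact S.k4_six h6 x.injective hh.1 hh.2
    have h1 := hKeq x x.injective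
    rw [hbot, Subgroup.card_bot] at h1
    rw [h6] at hG0 ⊢
    have e1 : (6 : ℕ).descFactorial 4 = 360 := by decide
    have e2 : (6 : ℕ).factorial = 720 := by decide
    rw [e1, ← h1] at hG0
    rw [e2]
    omega
  · left
    refine ⟨Or.inr h7, ?_⟩
    apply hindex
    have h1 := hKeq x x.injective
    have h2 := S.k4_seven_le h7 x.injective
    obtain ⟨b, hb, hb1⟩ := S.k4_seven_ne h7
    have h3 := hKeq b hb
    have h5 : Nat.card (MulAction.stabilizer G x) = 3 := by
      obtain ⟨l, hl⟩ := hodd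
      rw [← h1] at hl ⊢
      rw [h3, ← h1] at hb1
      omega
    rw [h7] at hG0 ⊢
    have e1 : (7 : ℕ).descFactorial 4 = 840 := by decide
    have e2 : (7 : ℕ).factorial = 5040 := by decide
    rw [e1, h5] at hG0
    rw [e2]
    omega
  · right
    refine ⟨h11, ?_⟩
    have hbot : K4 G x = ⊥ := by
      rw [eq_bot_iff]
      intro h hh
      rw [Subgroup.mem_bot]
      exact hK x x.injective h hh.1 hh.2
    have h1 := hKeq x x.injective
    rw [hbot, Subgroup.card_bot] at h1
    rw [h11] at hG0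
    have e1 : (11 : ℕ).descFactorial 4 = 7920 := by decide
    rw [e1, ← h1] at hG0
    omega

end Cfsg.Agent.Lib.FourTrans
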